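import Mathlib.GroupTheory.SpecificGroups.Alternating
import Mathlib.GroupTheory.Subgroup.Simple
import Mathlib.GroupTheory.QuotientGroup.Defs
import Mathlib.Data.ZMod.Basic
import Mathlib.SetTheory.Cardinal.Finite

/-!
Recognition of `PSU₄(3)` from a weakly closed self-centralising elementary abelian subgroup of order
81 with simple normaliser quotient: the hypotheses and the standard module.
-/

set_option autoImplicit false

namespace CfsgLib.U43Recog

/-- The hypotheses: a group of order `3265920` with a weakly closed self-centralising elementary
abelian subgroup of order 81 whose normaliser has index 112 and simple quotient. -/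
structure Hyp {H : Type*} [Group H] (T : Subgroup H) : Prop where
  card_H : Nat.card H = 3265920
  card_T : Nat.card T = 81
  comm : ∀ x ∈ T, ∀ y ∈ T, x * y = y * x
  cube : ∀ x ∈ T, x ^ 3 = 1
  cent : Subgroup.centralizer (T : Set H) = T
  card_N : Nat.card ↥(Subgroup.normalizer (T : Set H)) = 29160
  simple : ∃ _ : (T.subgroupOf (Subgroup.normalizer (T : Set H))).Normal,
    IsSimpleGroup (↥(Subgroup.normalizer (T : Set H)) ⧸ T.subgroupOf (Subgroup.normalizer (T : Set H)))
  closed : ∀ g : H, (∀ x ∈ T, g * x * g⁻¹ ∈ Subgroup.normalizer (T : Set H)) →
    g ∈ Subgroup.normalizer (T : Set H)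

/-- The coordinates of the module. -/
abbrev V0 := Fin 4 → ZMod 3

/-- The alternating group of degree six. -/
abbrev A6 := alternatingGroup (Fin 6)

/-- The lift of a vector to the vectors with sum zero, with last entry zero. -/
def lift6 (v : V0) : Fin 6 → ZMod 3 :=
  ![-(v 0 + v 1 + v 2 + v 3), v 0, v 1, v 2, v 3, 0]

/-- The normalisation modulo the constant vectors. -/
def proj4 (w : Fin 6 → ZMod 3) : V0 := fun j => w ⟨j.val + 1, by omega⟩ - w 5

/-- The action of even permutations on the vectors with sum zero modulo the constant vectors. -/
def act0 (π : A6) (v : V0) : V0 := proj4 fun i => lift6 v ((π : Equiv.Perm (Fin 6)).symm i)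

/-- A complement with its standard action on the module. -/
structure Frame {H : Type*} [Group H] (T : Subgroup H) (d : A6 →* H) (e : Multiplicative V0 →* H) :
    Prop where
  d_inj : Function.Injective d
  e_inj : Function.Injective e
  e_range : e.range = T
  d_le : d.range ≤ Subgroup.normalizer (T : Set H)
  conj : ∀ π v, d π * e (Multiplicative.ofAdd v) * (d π)⁻¹ = e (Multiplicative.ofAdd (act0 π v))

end CfsgLib.U43Recog
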