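import Cfsg.Agent.Lib.U43Recog.GraphChecks
import Cfsg.Agent.Lib.RankThreeRecog.Graph
import Mathlib.Tactic.Linarith

/-!
Recognition of `PSU₄(3)`: in every representation on the standard points the graph is the standard one.
-/

set_option autoImplicit false
set_option linter.style.haveILetI false

namespace CfsgLib.U43Recog

open MulAction CfsgLib.RankThreeRecog

/-- The kind of a point. -/
def kind : Pt → ℕ
  | none => 0
  | some (.inl _) => 1
  | some (.inr _) => 2

theorem kind_trans (t : V0) (a : Pt) : kind (trans t a) = kind a := by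
  rcases a with _ | ⟨p, c⟩ | v <;> rfl

theorem kind_permPt (π : A6) (a : Pt) : kind (permPt π a) = kind a := by
  rcases a with _ | ⟨p, c⟩ | v <;> rfl

theorem of_kind_one {a : Pt} (h : kind a = 1) : ∃ p c, a = nr p c := by
  rcases a with _ | ⟨p, c⟩ | v <;> simp [kind] at h
  exact ⟨p, c, rfl⟩

theorem of_kind_two {a : Pt} (h : kind a = 2) : ∃ v, a = fr v := by
  rcases a with _ | ⟨p, c⟩ | v <;> simp [kind] at h
  exact ⟨v, rfl⟩

variable {H : Type*} [Group H] [Finite H] {T : Subgroup H} {d : A6 →* H} {e : Multiplicative V0 →* H}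
  {ρ : H →* Equiv.Perm Pt}

/-- An element of the group of permutations. -/
def el (ρ : H →* Equiv.Perm Pt) (g : H) : ρ.range := ⟨ρ g, g, rfl⟩

theorem el_smul (g : H) (a : Pt) : el ρ g • a = ρ g a := rfl

section
variable (R : Rep T d e ρ)
include R

theorem d_none (π : A6) : el ρ (d π) • (none : Pt) = none := by rw [el_smul, R.rho_d]; rfl

theorem e_none (t : V0) : el ρ (e (Multiplicative.ofAdd t)) • (none : Pt) = none := by rw [el_smul, R.rho_e]; rfl

theorem kind_stab {g : ρ.range} (hg : g • (none : Pt) = none) (a : Pt) : kind (g • a) = kind a := by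
  obtain ⟨_, h, rfl⟩ := g
  let K : Subgroup H :=
    { carrier := {x | ∀ a, kind (ρ x a) = kind a}
      one_mem' := fun a => by simp
      mul_mem' := fun {x y} hx hy a => by rw [map_mul, Equiv.Perm.mul_apply, hx, hy]
      inv_mem' := fun {x} hx a => by
        conv_rhs => rw [show a = ρ x (ρ x⁻¹ a) by simp]
        rw [hx] }
  have hle : e.range ⊔ d.range ≤ K := by
    refine sup_le ?_ ?_
    · rintro _ ⟨t, rfl⟩ a
      rw [show t = Multiplicative.ofAdd (Multiplicative.toAdd t) from rfl, R.rho_e, kind_trans]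
    · rintro _ ⟨π, rfl⟩ a
      rw [R.rho_d, kind_permPt]
  exact hle (R.gen ((R.stab h).1 hg)) a

theorem orbit_near :
    orbit (stabilizer ρ.range (none : Pt)) (nr 0 0) = Set.range fun x : Fin 10 × ZMod 3 => nr x.1 x.2 := by
  ext a
  constructor
  · rintro ⟨g, rfl⟩
    obtain ⟨p, c, hpc⟩ := of_kind_one (a := g • nr 0 0) (kind_stab R g.2 _)
    exact ⟨(p, c), hpc.symm⟩
  · rintro ⟨⟨p, c⟩, rfl⟩
    obtain ⟨t, ht⟩ := chi_onto p c
    refine ⟨⟨el ρ (e (Multiplicative.ofAdd t)) * el ρ (d (toTriple p)),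
      by rw [mem_stabilizer_iff, mul_smul, d_none R, e_none R]⟩, ?_⟩
    show (el ρ _ * el ρ _) • nr 0 0 = nr p c
    rw [mul_smul, el_smul, el_smul, R.rho_d, (toTriple_ok p 0 0).1, R.rho_e]
    simp [nr, trans, ht]

theorem orbit_far : orbit (stabilizer ρ.range (none : Pt)) (fr 0) = Set.range fr := by
  ext a
  constructor
  · rintro ⟨g, rfl⟩
    obtain ⟨v, hv⟩ := of_kind_two (a := g • fr 0) (kind_stab R g.2 _)
    exact ⟨v, hv.symm⟩
  · rintro ⟨v, rfl⟩
    refine ⟨⟨el ρ (e (Multiplicative.ofAdd v)), e_none R v⟩, ?_⟩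
    show el ρ _ • fr 0 = fr v
    rw [el_smul, R.rho_e]
    simp [fr, trans]

theorem nr_injective : Function.Injective fun x : Fin 10 × ZMod 3 => nr x.1 x.2 := fun x y h => by
  simpa [nr] using h

theorem sub_rep : Sub ρ.range (none : Pt) (nr 0 0) (fr 0) 112 30 81 where
  finG := inferInstance
  finV := inferInstance
  pre := ⟨fun a b => by
    obtain ⟨g, rfl⟩ := R.trans_all a
    obtain ⟨k, rfl⟩ := R.trans_all b
    exact ⟨el ρ (k * g⁻¹), by simp [el_smul]⟩⟩
  card := by simp
  near := by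
    rw [orbit_near R, Set.ncard_range_of_injective (nr_injective R)]
    simp
  far := by
    rw [orbit_far R, Set.ncard_range_of_injective fun v w h => by simpa [fr] using h]
    simp
  ne := by norm_num
  sum := by norm_num
  kpos := by norm_num
  lpos := by norm_num
  noBlock := by norm_num

theorem sizes :
    (nearNear ρ.range (none : Pt) (nr 0 0)).ncard = 2 ∧
      (farNear ρ.range (none : Pt) (nr 0 0) (fr 0)).ncard = 10 ∧
      (farFar ρ.range (none : Pt) (nr 0 0) (fr 0)).ncard = 20 := by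
  have hS := sub_rep R
  have h1 := nearNear_lt hS
  have h2 := ncard_nearNear_add hS
  have h3 := ncard_farNear_add hS
  have h4 := double_count hS
  omega

end

theorem not_mem_of_tree {fs : List (Pt → Pt)} {orb : List Pt} {r : Pt} {L : ℕ} (horb : orb = r :: orb.tail)
    (h : treeOK fs [r] orb.tail = true ∧ distinct orb = true ∧ orb.length = L) {A : Set Pt}
    (hA : ∀ f ∈ fs, ∀ y, f y ∈ A ↔ y ∈ A) (hsize : A.ncard < L) : ∀ x ∈ orb, x ∉ A := by
  have hclosed : ∀ B : Set Pt, (∀ f ∈ fs, ∀ y ∈ B, f y ∈ B) → r ∈ B → ∀ x ∈ orb, x ∈ B := by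
    intro B hB hr x hx
    rw [horb] at hx
    rcases List.mem_cons.1 hx with rfl | hx
    · exact hr
    · exact treeOK_spec hB h.1 (fun y hy => by rwa [List.mem_singleton.1 hy]) x hx
  by_cases hr : r ∈ A
  · have hsub := hclosed A (fun f hf y hy => (hA f hf y).2 hy) hr
    have h2 : ((orb.toFinset : Finset Pt) : Set Pt).ncard ≤ A.ncard :=
      Set.ncard_le_ncard (fun x hx => hsub x (List.mem_toFinset.1 hx))
    rw [Set.ncard_coe_finset, List.toFinset_card_of_nodup (nodup_of_distinct h.2.1), h.2.2] at h2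
    omega
  · exact hclosed Aᶜ (fun f hf y hy hy' => hy ((hA f hf y).1 hy')) hr

section
variable (R : Rep T d e ρ)
include R

theorem fsFar_el {f : Pt → Pt} (hf : f ∈ fsFar) :
    ∃ g : ρ.range, g • (none : Pt) = none ∧ g • fr 0 = fr 0 ∧ ∀ y, g • y = f y := by
  simp only [fsFar, List.mem_cons, List.not_mem_nil, or_false] at hf
  rcases hf with rfl | rfl
  · exact ⟨el ρ (d gA), d_none R _, by rw [el_smul, R.rho_d]; exact fsFar_fix.1, fun y => R.rho_d _ y⟩
  · exact ⟨el ρ (d gB), d_none R _, by rw [el_smul, R.rho_d]; exact fsFar_fix.2, fun y => R.rho_d _ y⟩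

theorem fsNear_el {f : Pt → Pt} (hf : f ∈ fsNear) :
    ∃ g : ρ.range, g • (none : Pt) = none ∧ g • nr 0 0 = nr 0 0 ∧ ∀ y, g • y = f y := by
  have hfix : f (nr 0 0) = nr 0 0 := by
    have h := fsNear_fix
    simp only [List.all_eq_true, decide_eq_true_eq] at h
    exact h f hf
  have key : ∃ g : ρ.range, g • (none : Pt) = none ∧ ∀ y, g • y = f y := by
    simp only [fsNear, List.mem_cons, List.not_mem_nil, or_false] at hf
    rcases hf with rfl | rfl | rfl | rfl | rfl | rfl | rfl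
    · exact ⟨_, d_none R gA, fun y => R.rho_d _ y⟩
    · exact ⟨_, d_none R gC, fun y => R.rho_d _ y⟩
    · exact ⟨_, d_none R gD, fun y => R.rho_d _ y⟩
    · exact ⟨_, d_none R gE, fun y => R.rho_d _ y⟩
    · exact ⟨_, e_none R ![1, 0, 0, 0], fun y => R.rho_e _ y⟩
    · exact ⟨_, e_none R ![0, 1, 0, 0], fun y => R.rho_e _ y⟩
    · exact ⟨_, e_none R ![0, 0, 1, 2], fun y => R.rho_e _ y⟩
  obtain ⟨g, h1, h2⟩ := key
  exact ⟨g, h1, by rw [h2, hfix], h2⟩

theorem iff_of_invariant {A : Set Pt} {z : Pt}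
    (hinv : ∀ g : ρ.range, g • (none : Pt) = none → g • z = z → ∀ y ∈ A, g • y ∈ A)
    {fs : List (Pt → Pt)}
    (hfs : ∀ f ∈ fs, ∃ g : ρ.range, g • (none : Pt) = none ∧ g • z = z ∧ ∀ y, g • y = f y) :
    ∀ f ∈ fs, ∀ y, f y ∈ A ↔ y ∈ A := by
  intro f hf y
  obtain ⟨g, h1, h2, h3⟩ := hfs f hf
  rw [← h3]
  refine ⟨fun h => ?_, hinv g h1 h2 y⟩
  have := hinv g⁻¹ (by rw [inv_smul_eq_iff, h1]) (by rw [inv_smul_eq_iff, h2]) _ h
  rwa [inv_smul_smul] at this

theorem edge_far_near (p : Fin 10) (c : ZMod 3) :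
    Edge ρ.range (none : Pt) (nr 0 0) (fr 0) (nr p c) ↔ c = 0 := by
  have horbit := orbit_near R
  set A := farNear ρ.range (none : Pt) (nr 0 0) (fr 0) with hA
  have hcl := iff_of_invariant R (A := A) (fun g h1 h2 y => farNear_invariant h1 h2) (fun f hf => fsFar_el R hf)
  have hsub : A ⊆ Set.range fun q : Fin 10 => nr q 0 := by
    intro x hx
    have hx1 := hx.1
    rw [horbit] at hx1
    obtain ⟨⟨q, e⟩, rfl⟩ := hx1
    rcases eq_or_ne e 0 with rfl | he
    · exact ⟨q, rfl⟩
    · exact absurd hx (not_mem_of_tree (r := nr 0 1) rfl orbA_tree hcl (by rw [(sizes R).2.1]; norm_num) _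
        (mem_of_isIn (orbA_ok q e he)))
  have heq : A = Set.range fun q : Fin 10 => nr q 0 := by
    refine Set.eq_of_subset_of_ncard_le hsub ?_
    rw [(sizes R).2.1, Set.ncard_range_of_injective fun q q' h => by simpa [nr] using h]
    simp
  constructor
  · intro h
    have : nr p c ∈ A := ⟨by rw [horbit]; exact ⟨(p, c), rfl⟩, h⟩
    rw [heq] at this
    obtain ⟨q, hq⟩ := this
    simp only [nr, Option.some.injEq, Sum.inl.injEq, Prod.mk.injEq] at hq
    exact hq.2.symm
  · rintro rfl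
    exact (heq.symm ▸ ⟨p, rfl⟩ : nr p 0 ∈ A).2

theorem edge_far_far (v : V0) :
    Edge ρ.range (none : Pt) (nr 0 0) (fr 0) (fr v) ↔ (0 : V0) ≠ v ∧ qf (0 - v) = 0 := by
  have horbit := orbit_far R
  set A := farFar ρ.range (none : Pt) (nr 0 0) (fr 0) with hA
  have hcl := iff_of_invariant R (A := A) (fun g h1 h2 y => farFar_invariant h1 h2) (fun f hf => fsFar_el R hf)
  set X := fr '' ((Finset.univ.filter fun w : V0 => (0 : V0) ≠ w ∧ qf (0 - w) = 0 : Finset V0) : Set V0)
  have hsub : A ⊆ X := by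
    intro x hx
    have hx1 := hx.1
    rw [horbit] at hx1
    obtain ⟨w, rfl⟩ := hx1
    have h0 : (0 : V0) ≠ w := by
      rintro rfl
      exact edge_irrefl (sub_rep R) _ hx.2
    rcases orbBC_ok w with h | h | h | h
    · exact absurd h.symm h0
    · exact ⟨w, Finset.mem_coe.2 (Finset.mem_filter.2 ⟨Finset.mem_univ _, h0, (qf_neg w).trans h⟩), rfl⟩
    · exact absurd hx (not_mem_of_tree (r := fr ![0, 0, 0, 1]) rfl orbB_tree hcl
        (by rw [(sizes R).2.2]; norm_num) _ (mem_of_isIn h))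
    · exact absurd hx (not_mem_of_tree (r := fr ![0, 1, 1, 2]) rfl orbC_tree hcl
        (by rw [(sizes R).2.2]; norm_num) _ (mem_of_isIn h))
  have heq : A = X := by
    refine Set.eq_of_subset_of_ncard_le hsub ?_
    rw [(sizes R).2.2, Set.ncard_image_of_injective _ fun q q' h => by simpa [fr] using h,
      Set.ncard_coe_finset, card_farZero]
  constructor
  · intro h
    have : fr v ∈ A := ⟨by rw [horbit]; exact ⟨v, rfl⟩, h⟩
    rw [heq] at this
    obtain ⟨w, hw, e⟩ := this
    simp only [fr, Option.some.injEq, Sum.inr.injEq] at e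
    subst e
    simpa using hw
  · intro h
    have : fr v ∈ A := heq.symm ▸ ⟨v, Finset.mem_coe.2 (Finset.mem_filter.2 ⟨Finset.mem_univ _, h⟩), rfl⟩
    exact this.2

theorem edge_near_near (p : Fin 10) (c : ZMod 3) :
    Edge ρ.range (none : Pt) (nr 0 0) (nr 0 0) (nr p c) ↔ 0 = p ∧ (0 : ZMod 3) ≠ c := by
  have horbit := orbit_near R
  set A := nearNear ρ.range (none : Pt) (nr 0 0) with hA
  have hcl := iff_of_invariant R (A := A) (fun g h1 h2 y => nearNear_invariant h1 h2) (fun f hf => fsNear_el R hf)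
  have hthree : ∀ c : ZMod 3, c ≠ 0 → c = 1 ∨ c = 2 := by decide
  have hsub : A ⊆ {nr 0 1, nr 0 2} := by
    intro x hx
    have hx1 := hx.1
    rw [horbit] at hx1
    obtain ⟨⟨q, e⟩, rfl⟩ := hx1
    rcases eq_or_ne q 0 with rfl | hq
    · have he : e ≠ 0 := by
        rintro rfl
        exact edge_irrefl (sub_rep R) _ hx.2
      rcases hthree e he with rfl | rfl <;> simp
    · exact absurd hx (not_mem_of_tree (r := nr 1 0) rfl orbD_tree hcl (by rw [(sizes R).1]; norm_num) _
        (mem_of_isIn (orbD_ok q e hq)))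
  have heq : A = {nr 0 1, nr 0 2} := by
    refine Set.eq_of_subset_of_ncard_le hsub ?_
    rw [(sizes R).1]
    exact (Set.ncard_insert_le _ _).trans (by rw [Set.ncard_singleton])
  constructor
  · intro h
    have : nr p c ∈ A := ⟨by rw [horbit]; exact ⟨(p, c), rfl⟩, h⟩
    rw [heq] at this
    simp only [Set.mem_insert_iff, Set.mem_singleton_iff, nr, Option.some.injEq, Sum.inl.injEq,
      Prod.mk.injEq] at this
    rcases this with ⟨rfl, rfl⟩ | ⟨rfl, rfl⟩ <;> exact ⟨rfl, by decide⟩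
  · rintro ⟨rfl, hc⟩
    have : nr 0 c ∈ A := by
      rw [heq]
      rcases hthree c (Ne.symm hc) with rfl | rfl <;> simp
    exact this.2

theorem edge_none (b : Pt) : Edge ρ.range (none : Pt) (nr 0 0) none b ↔ Adj none b := by
  rw [edge_base, orbit_near R]
  rcases b with _ | ⟨p, c⟩ | v <;> simp [Adj, nr]

theorem edge_far (v : V0) (b : Pt) : Edge ρ.range (none : Pt) (nr 0 0) (fr v) b ↔ Adj (fr v) b := by
  have hm : ∀ x, el ρ (e (Multiplicative.ofAdd v)) • x = trans v x := fun x => R.rho_e v x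
  obtain ⟨b, rfl⟩ : ∃ b', b = trans v b' :=
    ⟨(el ρ (e (Multiplicative.ofAdd v)))⁻¹ • b, by rw [← hm, smul_inv_smul]⟩
  rw [show fr v = trans v (fr 0) by simp [fr, trans], adj_trans, ← hm, ← hm, edge_smul]
  rcases b with _ | ⟨p, c⟩ | w
  · refine ⟨fun h => ?_, fun h => h.elim⟩
    exact absurd ((edge_none R _).1 (edge_symm (sub_rep R) h)) (fun h => h.elim)
  · refine (edge_far_near R p c).trans ?_
    show c = 0 ↔ chi p 0 = c
    have : chi p 0 = 0 := by revert p; decide +kernel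
    rw [this]; exact eq_comm
  · exact edge_far_far R w

theorem edge_eq_adj (a b : Pt) : Edge ρ.range (none : Pt) (nr 0 0) a b ↔ Adj a b := by
  have hsym : ∀ {x y}, Edge ρ.range (none : Pt) (nr 0 0) x y ↔ Edge ρ.range (none : Pt) (nr 0 0) y x :=
    ⟨edge_symm (sub_rep R), edge_symm (sub_rep R)⟩
  have hadj : ∀ {x y : Pt}, Adj x y ↔ Adj y x := ⟨adj_symm, adj_symm⟩
  rcases a with _ | ⟨p, c⟩ | v
  · exact edge_none R b
  swap
  · exact edge_far R v b
  rcases b with _ | ⟨q, e'⟩ | w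
  · rw [hsym, hadj]; exact edge_none R _
  swap
  · rw [hsym, hadj]; exact edge_far R w _
  obtain ⟨t, ht⟩ := chi_onto p c
  have hm : ∀ x, el ρ (e (Multiplicative.ofAdd t)) • x = trans t x := fun x => R.rho_e t x
  have hm' : ∀ x, el ρ (d (toTriple p)) • x = permPt (toTriple p) x := fun x => R.rho_d _ x
  obtain ⟨b1, hb1⟩ : ∃ b', nr q e' = trans t b' :=
    ⟨(el ρ (e (Multiplicative.ofAdd t)))⁻¹ • nr q e', by rw [← hm, smul_inv_smul]⟩
  obtain ⟨b2, rfl⟩ : ∃ b'', b1 = permPt (toTriple p) b'' :=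
    ⟨(el ρ (d (toTriple p)))⁻¹ • b1, by rw [← hm', smul_inv_smul]⟩
  have hk : kind b2 = 1 := by
    rw [← kind_permPt (toTriple p) b2, ← kind_trans t, ← hb1]
    rfl
  obtain ⟨q', d', rfl⟩ := of_kind_one hk
  show Edge ρ.range (none : Pt) (nr 0 0) (nr p c) (nr q e') ↔ Adj (nr p c) (nr q e')
  rw [hb1, show nr p c = trans t (nr p 0) by simp [nr, trans, ht], adj_trans, ← (toTriple_ok p q' d').1,
    ← (toTriple_ok p q' d').2, ← hm, ← hm, ← hm', ← hm', edge_smul, edge_smul]
  exact edge_near_near R q' d'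

/-- The representation preserves the graph. -/
theorem adj_invariant (g : H) (a b : Pt) : Adj (ρ g a) (ρ g b) ↔ Adj a b := by
  rw [← edge_eq_adj R, ← edge_eq_adj R, ← el_smul g a, ← el_smul g b, edge_smul]

end

end CfsgLib.U43Recog
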