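import Cfsg.Agent.Lib.U43Recog.Std
import Mathlib.Data.Fintype.Sum
import Mathlib.Data.Fintype.Option
import Mathlib.Data.Fintype.Pi
import Mathlib.Data.Fintype.Prod
import Mathlib.Data.List.Basic
import Mathlib.Tactic.Ring

/-!
Recognition of `PSU₄(3)`: finite checks on the standard set of 112 points.
-/

set_option autoImplicit false
set_option maxRecDepth 100000

namespace CfsgLib.U43Recog

/-- Equality of points, computed by cases so that it reduces in the kernel. -/
instance (priority := 10000) ptDecEq : DecidableEq Pt := fun a b =>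
  match a, b with
  | none, none => isTrue rfl
  | none, some _ => isFalse (fun h => nomatch h)
  | some _, none => isFalse (fun h => nomatch h)
  | some (.inl x), some (.inl y) =>
      decidable_of_iff (x.1 = y.1 ∧ x.2 = y.2) ⟨fun h => by rw [Prod.ext h.1 h.2], fun h =>
        ⟨congrArg Prod.fst (Sum.inl.inj (Option.some.inj h)), congrArg Prod.snd (Sum.inl.inj (Option.some.inj h))⟩⟩
  | some (.inl _), some (.inr _) => isFalse (fun h => nomatch h)
  | some (.inr _), some (.inl _) => isFalse (fun h => nomatch h)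
  | some (.inr v), some (.inr w) =>
      decidable_of_iff (∀ i, v i = w i) ⟨fun h => by rw [funext h], fun h =>
        congrFun (Sum.inr.inj (Option.some.inj h))⟩

/-- Membership in a list of points. -/
def isIn (x : Pt) (l : List Pt) : Bool := l.any fun y => decide (y = x)

theorem mem_of_isIn {x : Pt} {l : List Pt} (h : isIn x l = true) : x ∈ l := by
  simp only [isIn, List.any_eq_true, decide_eq_true_eq] at h
  obtain ⟨y, hy, rfl⟩ := h
  exact hy

/-- Every point of a list is the image of an earlier point. -/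
def treeOK (fs : List (Pt → Pt)) : List Pt → List Pt → Bool
  | _, [] => true
  | prev, x :: l => (prev.any fun y => fs.any fun f => decide (f y = x)) && treeOK fs (x :: prev) l

theorem treeOK_spec {fs : List (Pt → Pt)} {A : Set Pt} (hA : ∀ f ∈ fs, ∀ y ∈ A, f y ∈ A) :
    ∀ {prev l : List Pt}, treeOK fs prev l = true → (∀ y ∈ prev, y ∈ A) → ∀ x ∈ l, x ∈ A
  | _, [], _, _ => fun _ hx => absurd hx List.not_mem_nil
  | prev, x :: l, h, hp => by
    rw [treeOK, Bool.and_eq_true, List.any_eq_true] at h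
    obtain ⟨⟨y, hy, hf⟩, hl⟩ := h
    simp only [List.any_eq_true, decide_eq_true_eq] at hf
    obtain ⟨f, hfm, rfl⟩ := hf
    have hx := hA f hfm y (hp y hy)
    exact List.forall_mem_cons.2 ⟨hx, treeOK_spec hA hl (List.forall_mem_cons.2 ⟨hx, hp⟩)⟩

/-- No repetitions. -/
def distinct : List Pt → Bool
  | [] => true
  | x :: l => !(isIn x l) && distinct l

theorem nodup_of_distinct : ∀ {l : List Pt}, distinct l = true → l.Nodup
  | [], _ => List.nodup_nil
  | x :: l, h => by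
    rw [distinct, Bool.and_eq_true, Bool.not_eq_true'] at h
    refine List.nodup_cons.2 ⟨fun hx => ?_, nodup_of_distinct h.2⟩
    have : isIn x l = true := by
      simp only [isIn, List.any_eq_true, decide_eq_true_eq]
      exact ⟨x, hx, rfl⟩
    rw [h.1] at this
    exact absurd this (by decide)

/-- A near point. -/
def nr (p : Fin 10) (c : ZMod 3) : Pt := some (.inl (p, c))

/-- A far point. -/
def fr (v : V0) : Pt := some (.inr v)

/-- The first generator of the complement. -/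
def gA : A6 := ⟨Equiv.swap 0 1 * Equiv.swap 1 2, Equiv.Perm.mem_alternatingGroup.2 (by decide)⟩

/-- The second generator of the complement. -/
def gB : A6 :=
  ⟨Equiv.swap 1 2 * Equiv.swap 2 3 * Equiv.swap 3 4 * Equiv.swap 4 5, Equiv.Perm.mem_alternatingGroup.2 (by decide)⟩

/-- A cycle in the complement of the first triple. -/
def gC : A6 := ⟨Equiv.swap 3 4 * Equiv.swap 4 5, Equiv.Perm.mem_alternatingGroup.2 (by decide)⟩

/-- A double transposition keeping the first triple. -/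
def gD : A6 := ⟨Equiv.swap 0 1 * Equiv.swap 3 4, Equiv.Perm.mem_alternatingGroup.2 (by decide)⟩

/-- An element exchanging the first triple and its complement. -/
def gE : A6 :=
  ⟨Equiv.swap 0 3 * Equiv.swap 1 4 * Equiv.swap 4 2 * Equiv.swap 2 5, Equiv.Perm.mem_alternatingGroup.2 (by decide)⟩

/-- Elements moving the first triple to the others. -/
def toTriple (p : Fin 10) : A6 :=
  ![1,
    ⟨Equiv.swap 2 3 * Equiv.swap 4 5, Equiv.Perm.mem_alternatingGroup.2 (by decide)⟩,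
    ⟨Equiv.swap 2 4 * Equiv.swap 4 3, Equiv.Perm.mem_alternatingGroup.2 (by decide)⟩,
    ⟨Equiv.swap 2 5 * Equiv.swap 5 3, Equiv.Perm.mem_alternatingGroup.2 (by decide)⟩,
    ⟨Equiv.swap 1 2 * Equiv.swap 2 3, Equiv.Perm.mem_alternatingGroup.2 (by decide)⟩,
    ⟨Equiv.swap 1 2 * Equiv.swap 2 4 * Equiv.swap 4 5 * Equiv.swap 5 3, Equiv.Perm.mem_alternatingGroup.2 (by decide)⟩,
    ⟨Equiv.swap 1 2 * Equiv.swap 2 5 * Equiv.swap 5 4 * Equiv.swap 4 3, Equiv.Perm.mem_alternatingGroup.2 (by decide)⟩,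
    ⟨Equiv.swap 1 3 * Equiv.swap 2 4, Equiv.Perm.mem_alternatingGroup.2 (by decide)⟩,
    ⟨Equiv.swap 1 3 * Equiv.swap 2 5, Equiv.Perm.mem_alternatingGroup.2 (by decide)⟩,
    ⟨Equiv.swap 1 4 * Equiv.swap 4 2 * Equiv.swap 2 5 * Equiv.swap 5 3,
      Equiv.Perm.mem_alternatingGroup.2 (by decide)⟩] p

/-- The generators of the stabiliser of the far point zero. -/
def fsFar : List (Pt → Pt) := [permPt gA, permPt gB]

/-- The generators of the stabiliser of the first near point. -/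
def fsNear : List (Pt → Pt) :=
  [permPt gA, permPt gC, permPt gD, permPt gE, trans ![1, 0, 0, 0], trans ![0, 1, 0, 0], trans ![0, 0, 1, 2]]

/-- The orbit of twenty near points. -/
def orbA : List Pt := [nr 0 1, nr 4 1, nr 1 1, nr 7 1, nr 9 2, nr 5 1, nr 6 2, nr 9 1, nr 3 2, nr 2 1, nr 8 1, nr 1 2, nr 4 2, nr 3 1, nr 0 2, nr 8 2, nr 6 1, nr 5 2, nr 7 2, nr 2 2]

theorem orbA_tree : treeOK fsFar [nr 0 1] (orbA.tail) = true ∧ distinct orbA = true ∧ orbA.length = 20 := by
  decide +kernel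

/-- An orbit of thirty far points. -/
def orbB : List Pt := [fr ![0, 0, 0, 1], fr ![2, 0, 0, 1], fr ![2, 2, 2, 2], fr ![0, 2, 0, 1], fr ![2, 1, 2, 2], fr ![1, 2, 2, 2], fr ![1, 0, 0, 0], fr ![2, 2, 1, 2], fr ![1, 0, 2, 0], fr ![1, 2, 0, 0], fr ![2, 1, 0, 0], fr ![0, 1, 0, 0], fr ![1, 0, 0, 2], fr ![0, 1, 2, 0], fr ![0, 1, 0, 2], fr ![0, 2, 0, 0], fr ![0, 2, 1, 0], fr ![2, 0, 0, 0], fr ![0, 0, 1, 0], fr ![1, 2, 1, 1], fr ![0, 0, 2, 0], fr ![0, 0, 1, 2], fr ![0, 0, 0, 2], fr ![1, 1, 2, 1], fr ![0, 0, 2, 1], fr ![2, 0, 1, 0], fr ![1, 1, 1, 1], fr ![1, 1, 1, 2], fr ![2, 2, 2, 1], fr ![2, 1, 1, 1]]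

theorem orbB_tree : treeOK fsFar [fr ![0, 0, 0, 1]] (orbB.tail) = true ∧ distinct orbB = true ∧ orbB.length = 30 := by
  decide +kernel

/-- Another orbit of thirty far points. -/
def orbC : List Pt := [fr ![0, 1, 1, 2], fr ![2, 0, 1, 2], fr ![1, 1, 2, 2], fr ![1, 2, 1, 2], fr ![1, 0, 1, 2], fr ![0, 1, 2, 2], fr ![1, 2, 2, 0], fr ![1, 2, 0, 2], fr ![2, 1, 1, 2], fr ![1, 0, 2, 2], fr ![1, 1, 2, 0], fr ![1, 1, 0, 2], fr ![1, 2, 0, 1], fr ![0, 2, 1, 2], fr ![1, 2, 1, 0], fr ![2, 1, 2, 0], fr ![2, 1, 0, 2], fr ![1, 2, 2, 1], fr ![2, 1, 0, 1], fr ![2, 1, 1, 0], fr ![0, 1, 2, 1], fr ![1, 0, 2, 1], fr ![2, 0, 1, 1], fr ![2, 2, 0, 1], fr ![2, 2, 1, 0], fr ![0, 2, 1, 1], fr ![2, 0, 2, 1], fr ![2, 1, 2, 1], fr ![2, 2, 1, 1], fr ![0, 2, 2, 1]]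

theorem orbC_tree : treeOK fsFar [fr ![0, 1, 1, 2]] (orbC.tail) = true ∧ distinct orbC = true ∧ orbC.length = 30 := by
  decide +kernel

/-- The orbit of twenty-seven near points. -/
def orbD : List Pt := [nr 1 0, nr 9 0, nr 2 0, nr 7 0, nr 1 2, nr 1 1, nr 4 0, nr 8 0, nr 5 0, nr 9 2, nr 3 0, nr 2 2, nr 6 0, nr 7 2, nr 9 1, nr 2 1, nr 7 1, nr 4 2, nr 4 1, nr 8 2, nr 8 1, nr 5 2, nr 5 1, nr 3 2, nr 3 1, nr 6 2, nr 6 1]

theorem orbD_tree : treeOK fsNear [nr 1 0] (orbD.tail) = true ∧ distinct orbD = true ∧ orbD.length = 27 := by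
  decide +kernel

theorem orbA_ok : ∀ p : Fin 10, ∀ c : ZMod 3, c ≠ 0 → isIn (nr p c) orbA = true := by decide +kernel

theorem orbBC_ok : ∀ v : V0, v = 0 ∨ qf v = 0 ∨ isIn (fr v) orbB = true ∨ isIn (fr v) orbC = true := by
  decide +kernel

theorem orbD_ok : ∀ p : Fin 10, ∀ c : ZMod 3, p ≠ 0 → isIn (nr p c) orbD = true := by decide +kernel

theorem fsFar_fix : permPt gA (fr 0) = fr 0 ∧ permPt gB (fr 0) = fr 0 := by decide +kernel

theorem fsNear_fix : (fsNear.all fun f => decide (f (nr 0 0) = nr 0 0)) = true := by decide +kernel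

theorem card_nearZero : (Finset.univ.filter fun x : Fin 10 × ZMod 3 => chi x.1 0 = x.2).card = 10 := by
  decide +kernel

theorem card_farZero : (Finset.univ.filter fun w : V0 => (0 : V0) ≠ w ∧ qf (0 - w) = 0).card = 20 := by
  decide +kernel

theorem qf_neg : ∀ v : V0, qf (0 - v) = qf v := by decide +kernel

theorem toTriple_ok : ∀ p p' : Fin 10, ∀ c' : ZMod 3,
    permPt (toTriple p) (nr 0 0) = nr p 0 ∧
      (Adj (nr 0 0) (nr p' c') ↔ Adj (permPt (toTriple p) (nr 0 0)) (permPt (toTriple p) (nr p' c'))) := by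
  decide +kernel

theorem chi_plus (p : Fin 10) (v t : V0) : chi p (v + t) = chi p v + chi p t := by
  fin_cases p <;> simp [chi, lift6, triple] <;> ring

theorem chi_sep : ∀ v : V0, (∀ p : Fin 10, chi p v = 0) → v = 0 := by decide +kernel

theorem chi_onto : ∀ p : Fin 10, ∀ c : ZMod 3, ∃ t : V0, chi p t = c := by decide +kernel

theorem shift_ok : ∀ f : ZMod 3 → ZMod 3, (∀ a b, f a = f b → a = b) →
    ∀ s c c', f (c + s) - f c = f (c' + s) - f c' := by
  decide +kernel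

theorem adj_symm {a b : Pt} (h : Adj a b) : Adj b a := by
  rcases a with _ | ⟨p, c⟩ | v <;> rcases b with _ | ⟨q, d⟩ | w <;> simp only [Adj] at h ⊢
  · exact ⟨h.1.symm, h.2.symm⟩
  · exact h
  · exact h
  · refine ⟨h.1.symm, ?_⟩
    have e : w - v = 0 - (v - w) := (zero_sub (v - w)).symm ▸ (neg_sub v w).symm
    rw [e, qf_neg]
    exact h.2

theorem adj_trans (t : V0) (a b : Pt) : Adj (trans t a) (trans t b) ↔ Adj a b := by
  rcases a with _ | ⟨p, c⟩ | v <;> rcases b with _ | ⟨q, d⟩ | w <;> simp only [Adj, trans]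
  · constructor
    · rintro ⟨rfl, h⟩
      exact ⟨rfl, fun e => h (by rw [e])⟩
    · rintro ⟨rfl, h⟩
      exact ⟨rfl, fun e => h (add_right_cancel e)⟩
  · rw [chi_plus, add_left_inj]
  · rw [chi_plus, add_left_inj]
  · rw [add_sub_add_right_eq_sub, Ne, add_left_inj]

end CfsgLib.U43Recog
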