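/-
Finite facts about the four-dimensional module of the alternating group of degree six over three
elements.
-/
import Mathlib
import Cfsg.Agent.Lib.U43Recog.Defs

set_option autoImplicit false

namespace CfsgLib.U43Recog

open Equiv

/-- `(0 1)(2 3)`. -/
def pa : A6 := ⟨swap 0 1 * swap 2 3, Equiv.Perm.mem_alternatingGroup.2 (by decide)⟩

/-- `(0 2)(1 3)`. -/
def pq : A6 := ⟨swap 0 2 * swap 1 3, Equiv.Perm.mem_alternatingGroup.2 (by decide)⟩

/-- `(0 1 2)`. -/
def pc : A6 := ⟨swap 0 1 * swap 1 2, Equiv.Perm.mem_alternatingGroup.2 (by decide)⟩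

/-- `(0 1 2 3 4)`. -/
def pf : A6 :=
  ⟨swap 0 1 * swap 1 2 * swap 2 3 * swap 3 4, Equiv.Perm.mem_alternatingGroup.2 (by decide)⟩

/-- `(0 1)(4 5)`. -/
def pt : A6 := ⟨swap 0 1 * swap 4 5, Equiv.Perm.mem_alternatingGroup.2 (by decide)⟩

/-- The action of the five-cycle. -/
def fF (v : V0) : V0 := ![-(v 0 + v 1 + v 2 + v 3), v 0, v 1, v 2]

theorem act0_pf : ∀ v : V0, act0 pf v = fF v := by decide +kernel

theorem pf_five : pf ^ 5 = 1 := by decide +kernel

theorem pf_ne : pf ≠ 1 := by decide +kernel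

theorem ptf_five : (pt * pf) ^ 5 = 1 := by decide +kernel

theorem relations : pa * pa = 1 ∧ pq * pq = 1 ∧ pa * pq = pq * pa ∧ pc ^ 3 = 1 ∧
    pc * pa = (pa * pq) * pc ∧ pc * pq = pa * pc ∧ pc * (pa * pq) = pq * pc ∧ pt * pt = 1 ∧
    pt * pa = pa * pt ∧ pt * pq = (pa * pq) * pt ∧ pt * pc = pc ^ 2 * pt ∧
    pt * pc ^ 2 = pc * pt := by decide +kernel

theorem fixers : (pa : Perm (Fin 6)) 5 = 5 ∧ (pq : Perm (Fin 6)) 5 = 5 ∧
    (pc : Perm (Fin 6)) 5 = 5 ∧ (pf : Perm (Fin 6)) 5 = 5 ∧ (pt : Perm (Fin 6)) 4 = 5 := by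
  decide +kernel

theorem pf_pow_apply : ∀ i : Fin 6, i ≠ 5 →
    ((pf ^ (i.val + 1) : A6) : Perm (Fin 6)) 4 = i ∧
      ((pf ^ (i.val + 1) : A6) : Perm (Fin 6)) 5 = 5 := by
  decide +kernel

/-- The stabiliser of the last two points. -/
theorem stab_four : ∀ p : Perm (Fin 6), p 5 = 5 → p 4 = 4 → Equiv.Perm.sign p = 1 →
    p ∈ ([1, (pa : Perm (Fin 6)), pq, pa * pq].flatMap fun e =>
      [e, e * (pc : Perm (Fin 6)), e * (pc : Perm (Fin 6)) * (pc : Perm (Fin 6))]) := by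
  decide +kernel

/-- A nonzero kernel invariant under the five-cycle contains the first unit vector. -/
theorem span_fF : ∀ c : V0, c ≠ 0 → ∃ k : V0,
    k 0 • c + k 1 • fF c + k 2 • fF (fF c) + k 3 • fF (fF (fF c)) = ![1, 0, 0, 0] := by
  decide +kernel

/-- The fixed vector of the stabiliser of the last two points. -/
def w0 : V0 := ![1, 1, 1, 2]

/-- An eigenvector of the four-group. -/
def w1 : V0 := ![1, 2, 2, 0]

/-- The coordinates with respect to `w0`, `w1`, `c w1`, `c² w1`. -/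
def coef (v : V0) : V0 := ![2 * v 3, v 1 + v 2 + 2 * v 3,
  2 * v 0 + 2 * v 1 + v 3, v 0 + v 2 + 2 * v 3]

/-- A linear combination of four vectors. -/
def comb (y z : V0) (v : V0) : V0 :=
  coef v 0 • y + coef v 1 • z + coef v 2 • act0 (pc ^ 2) z + coef v 3 • act0 pc z

theorem coef_spec : ∀ v : V0,
    coef v 0 • w0 + coef v 1 • w1 + coef v 2 • act0 pc w1 + coef v 3 • act0 (pc ^ 2) w1 = v := by
  decide +kernel

theorem w_facts : act0 pa w0 = w0 ∧ act0 pq w0 = w0 ∧ act0 pc w0 = w0 ∧ act0 pa w1 = w1 ∧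
    act0 pq w1 = -w1 ∧ lift6 w0 = ![1, 1, 1, 1, 2, 0] := by
  decide +kernel

theorem fixed_cases : ∀ y : V0, act0 pa y = y → act0 pq y = y → act0 pc y = y →
    y ∈ [0, w0, -w0] := by
  decide +kernel

theorem eigen_cases : ∀ z : V0, act0 pa z = z → act0 (pa * pq) z = -z →
    z ∈ [0, w1, -w1] := by
  decide +kernel

/-- Five steps of a candidate for the last generator followed by the five-cycle. -/
def fiveSteps (y z v : V0) : V0 :=
  comb y z (fF (comb y z (fF (comb y z (fF (comb y z (fF (comb y z (fF v)))))))))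

theorem candidate_cases : ∀ y ∈ [0, w0, -w0], ∀ z ∈ [0, w1, -w1],
    (∀ v : V0, fiveSteps y z v = v) → ∀ v : V0, comb y z v = act0 pt v := by
  decide +kernel

/-- The five-cycle determines the last generator. -/
theorem candidates (y z : V0) (hy : act0 pa y = y ∧ act0 pq y = y ∧ act0 pc y = y)
    (hz : act0 pa z = z ∧ act0 (pa * pq) z = -z) (h : ∀ v : V0, fiveSteps y z v = v) (v : V0) :
    comb y z v = act0 pt v :=
  candidate_cases y (fixed_cases y hy.1 hy.2.1 hy.2.2) z (eigen_cases z hz.1 hz.2) h v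

end CfsgLib.U43Recog
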