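/-
The faithful action of the alternating group of degree six on an elementary abelian group of order
81 is unique: every complement has a standard frame.
-/
import Cfsg.Agent.Lib.U43Recog.ModuleFacts
import Cfsg.Agent.S0497

set_option autoImplicit false

namespace CfsgLib.U43Recog

open Equiv

theorem five_zsmul (x : ZMod 3) : 5 * x = -x := by revert x; decide

theorem lift6_sum (v : V0) : ∑ i, lift6 v i = 0 := by
  simp [Fin.sum_univ_six, lift6]
  ring

theorem lift6_five (v : V0) : lift6 v 5 = 0 := by simp [lift6]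

theorem lift6_proj4 {w : Fin 6 → ZMod 3} (hw : ∑ i, w i = 0) (i : Fin 6) :
    lift6 (proj4 w) i = w i - w 5 := by
  rw [Fin.sum_univ_six] at hw
  fin_cases i <;> try simp [lift6, proj4]
  linear_combination -hw + five_zsmul (w 5)

theorem sum_perm (π : A6) (v : V0) : ∑ i, lift6 v ((π : Perm (Fin 6)).symm i) = 0 :=
  (Equiv.sum_comp (π : Perm (Fin 6)).symm (lift6 v)).trans (lift6_sum v)

theorem act0_mul (π σ : A6) (v : V0) : act0 (π * σ) v = act0 π (act0 σ v) := by
  funext j
  simp only [act0, proj4]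
  have h := fun i => lift6_proj4 (sum_perm σ v) i
  rw [h, h]
  have e : ∀ i, ((π * σ : A6) : Perm (Fin 6)).symm i
      = (σ : Perm (Fin 6)).symm ((π : Perm (Fin 6)).symm i) := fun i => rfl
  rw [e, e]
  ring

theorem lift6_act0 {π : A6} (hπ : (π : Perm (Fin 6)) 5 = 5) (v : V0) (i : Fin 6) :
    lift6 (act0 π v) i = lift6 v ((π : Perm (Fin 6)).symm i) := by
  rw [act0, lift6_proj4 (sum_perm π v)]
  have e : (π : Perm (Fin 6)).symm 5 = 5 := (Equiv.symm_apply_eq _).2 hπ.symm
  show _ - lift6 v ((π : Perm (Fin 6)).symm 5) = _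
  rw [e, lift6_five, sub_zero]

theorem lift6_add (v w : V0) (i : Fin 6) : lift6 (v + w) i = lift6 v i + lift6 w i := by
  fin_cases i <;> simp [lift6]
  ring

theorem lift6_smul (k : ZMod 3) (v : V0) (i : Fin 6) : lift6 (k • v) i = k * lift6 v i := by
  fin_cases i <;> simp [lift6]
  ring

/-- The action as linear maps. -/
def stdLin (π : A6) : V0 →ₗ[ZMod 3] V0 where
  toFun := act0 π
  map_add' v w := by
    funext j
    simp only [act0, proj4, lift6_add, Pi.add_apply]
    ring
  map_smul' k v := by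
    funext j
    simp only [act0, proj4, lift6_smul, Pi.smul_apply, smul_eq_mul, RingHom.id_apply]
    ring

theorem stdLin_apply (π : A6) (v : V0) : stdLin π v = act0 π v := rfl

variable (R : A6 →* Module.End (ZMod 3) V0)

theorem R_mul_apply (π σ : A6) (v : V0) : R (π * σ) v = R π (R σ v) := by
  rw [map_mul]; rfl

theorem R_one_apply (v : V0) : R 1 v = v := by rw [map_one]; rfl

/-- Five points spanned by the translates of a vector under the five-cycle. -/
def five (x : V0) (i : Fin 6) : V0 := if i = 5 then 0 else R (pf ^ i.val) x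

/-- The map from the standard module attached to a vector. -/
def spread (x : V0) : V0 →ₗ[ZMod 3] V0 where
  toFun c := ∑ i, lift6 c i • five R x i
  map_add' a b := by simp [lift6_add, add_smul, Finset.sum_add_distrib]
  map_smul' k a := by simp [lift6_smul, mul_smul, Finset.smul_sum]

theorem spread_apply (x c : V0) : spread R x c = ∑ i, lift6 c i • five R x i := rfl

theorem spread_fF (x c : V0) : spread R x (fF c) = R pf (spread R x c) := by
  have h5 : R pf ((R pf ^ 4) x) = x := by
    rw [← map_pow, ← R_mul_apply, ← pow_succ', pf_five, R_one_apply]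
  have hs : ∀ k : ℕ, R pf ((R pf ^ k) x) = (R pf ^ (k + 1)) x := fun k => by
    rw [← map_pow, ← R_mul_apply, ← pow_succ', map_pow]
  have h1 : R pf (R pf x) = (R pf ^ 2) x := by rw [← hs 1, pow_one]
  simp [spread_apply, Fin.sum_univ_six, five, lift6, fF, R_one_apply]
  rw [h5, h1, hs 2, hs 3]
  module

theorem spread_injective {x : V0} (hx : R pf x ≠ x) : Function.Injective (spread R x) := by
  rw [injective_iff_map_eq_zero]
  intro c hc
  by_contra hne
  obtain ⟨k, hk⟩ := span_fF c hne
  refine hx ?_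
  have h := congrArg (spread R x) hk
  simp only [map_add, map_smul, spread_fF, hc, map_zero, smul_zero, add_zero] at h
  have e : spread R x ![1, 0, 0, 0] = R pf x - x := by
    simp [spread_apply, Fin.sum_univ_six, five, lift6, R_one_apply]
    module
  rw [e] at h
  exact sub_eq_zero.1 h.symm

variable {R}

theorem exists_moved (hR : ∀ π, (∀ v, R π v = v) → π = 1) : ∃ x, R pf x ≠ x := by
  by_contra h
  push Not at h
  exact pf_ne (hR pf h)

theorem fixed_eq_zero (hR : ∀ π, (∀ v, R π v = v) → π = 1) {w : V0} (hw : R pf w = w) : w = 0 := by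
  obtain ⟨x, hx⟩ := exists_moved hR
  obtain ⟨c, rfl⟩ := Finite.surjective_of_injective (spread_injective R hx) w
  have hinv : fF c = c := spread_injective R hx (by rw [spread_fF, hw])
  have : c = 0 := (show ∀ c : V0, fF c = c → c = 0 by decide +kernel) c hinv
  rw [this, map_zero]

/-- The stabiliser of the last two points fixes a nonzero vector. -/
theorem exists_fixed :
    ∃ u : V0, u ≠ 0 ∧ R pa u = u ∧ R pq u = u ∧ R pc u = u := by
  obtain ⟨ha, hq, haq, hc, hca, hcq, hcaq, -⟩ := relations
  set a := R pa with hA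
  set q := R pq with hQ
  have sq : ∀ v, a (a v) = v ∧ q (q v) = v ∧ a (q v) = q (a v) := fun v =>
    ⟨by rw [hA, ← R_mul_apply, ha, R_one_apply], by rw [hQ, ← R_mul_apply, hq, R_one_apply],
      by rw [hA, hQ, ← R_mul_apply, haq, R_mul_apply]⟩
  have hc3 : ∀ v, R pc (R pc (R pc v)) = v := fun v => by
    rw [← R_mul_apply, ← R_mul_apply, ← pow_three', hc, R_one_apply]
  have ca : ∀ v, R pc (a v) = a (q (R pc v)) := fun v => by
    rw [hA, hQ, ← R_mul_apply, ← R_mul_apply, ← R_mul_apply, hca, mul_assoc]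
  have cq : ∀ v, R pc (q v) = a (R pc v) := fun v => by
    rw [hA, hQ, ← R_mul_apply, ← R_mul_apply, hcq]
  -- a fixed vector of the four-group
  have hfour : ∃ v : V0, v ≠ 0 ∧ a v = v ∧ q v = v := by
    by_contra hno
    push Not at hno
    have hp : ∀ v, v + a v + (q v + a (q v)) = 0 := by
      intro v
      by_contra hne
      refine hno _ hne ?_ ?_
      · simp only [map_add, (sq v).1, (sq (q v)).1]; abel
      · simp only [map_add, (sq v).2.1, ← (sq v).2.2, ← (sq (q v)).2.2]
        abel
    let W : Submodule (ZMod 3) V0 :=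
      { carrier := {v | a v = v ∧ q v = -v}
        add_mem' := by
          intro x y hx hy
          exact ⟨by rw [map_add, hx.1, hy.1], by rw [map_add, hx.2, hy.2, neg_add]⟩
        zero_mem' := ⟨map_zero _, by rw [map_zero, neg_zero]⟩
        smul_mem' := by
          intro k x hx
          exact ⟨by rw [map_smul, hx.1], by rw [map_smul, hx.2, smul_neg]⟩ }
    let Φ : W × W × W → V0 := fun y => y.1.1 + R pc y.2.1.1 + R pc (R pc y.2.2.1)
    have eig : ∀ y ∈ W, a (R pc y) = -R pc y ∧ q (R pc y) = -R pc y ∧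
        a (R pc (R pc y)) = -R pc (R pc y) ∧ q (R pc (R pc y)) = R pc (R pc y) := by
      intro y hy
      have h1 : a (R pc y) = -R pc y := by rw [← cq, hy.2, map_neg]
      have h2 : q (R pc y) = -R pc y := by
        have e : a (a (q (R pc y))) = a (R pc y) := by rw [← ca, hy.1]
        rwa [(sq _).1, h1] at e
      refine ⟨h1, h2, by rw [← cq, h2, map_neg], ?_⟩
      have e : a (a (q (R pc (R pc y)))) = a (-R pc (R pc y)) := by rw [← ca, h1, map_neg]
      rw [(sq _).1, map_neg, ← cq, h2, map_neg, neg_neg] at e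
      exact e
    have hΦ : Function.Bijective Φ := by
      constructor
      · rintro ⟨⟨x, hx⟩, ⟨y, hy⟩, ⟨z, hz⟩⟩ ⟨⟨x', hx'⟩, ⟨y', hy'⟩, ⟨z', hz'⟩⟩ e
        have e' : x + R pc y + R pc (R pc z) = x' + R pc y' + R pc (R pc z') := e
        have ea := congrArg a e'
        have eq' := congrArg q e'
        simp only [map_add, hx.1, hx'.1, hx.2, hx'.2, (eig y hy).1, (eig y' hy').1, (eig z hz).2.2.1,
          (eig z' hz').2.2.1, (eig y hy).2.1, (eig y' hy').2.1, (eig z hz).2.2.2,
          (eig z' hz').2.2.2] at ea eq'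
        have key : ∀ A B C A' B' C' : ZMod 3, A + B + C = A' + B' + C' →
            A + -B + -C = A' + -B' + -C' → -A + -B + C = -A' + -B' + C' →
            A = A' ∧ B = B' ∧ C = C' := by decide +kernel
        have k := fun j : Fin 4 => key _ _ _ _ _ _ (congrFun e' j) (congrFun ea j) (congrFun eq' j)
        have hinj : ∀ {s t : V0}, R pc s = R pc t → s = t := fun {s t} h => by
          rw [← hc3 s, h, hc3]
        simp only [Prod.mk.injEq, Subtype.mk.injEq]
        exact ⟨funext fun j => (k j).1, hinj (funext fun j => (k j).2.1),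
          hinj (hinj (funext fun j => (k j).2.2))⟩
      · intro v
        have h4 : ∀ w : V0, w + w + w + w = w := fun w => by
          funext j; exact (show ∀ x : ZMod 3, x + x + x + x = x by decide) _
        have mem : ∀ v, v + a v - (q v + a (q v)) ∈ W := fun v => by
          refine ⟨?_, ?_⟩
          · simp only [map_sub, map_add, (sq v).1, (sq (q v)).1]; abel
          · simp only [map_sub, map_add, (sq v).2.1, ← (sq v).2.2, ← (sq (q v)).2.2]
            abel
        refine ⟨(⟨_, mem v⟩, ⟨_, mem (R pc (R pc v))⟩, ⟨_, mem (R pc v)⟩), ?_⟩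
        show _ + R pc _ + R pc (R pc _) = v
        simp only [map_add, map_sub, ca, cq, hc3, (sq _).1, (sq _).2.1,
          show ∀ w, q (a w) = a (q w) from fun w => (sq w).2.2.symm]
        calc _ = v + v + v + v - (v + a v + (q v + a (q v))) := by abel
          _ = v := by rw [h4, hp, sub_zero]
    have hcard := Nat.card_congr (Equiv.ofBijective Φ hΦ)
    rw [Nat.card_prod, Nat.card_prod, show Nat.card V0 = 81 by simp] at hcard
    have hle : Nat.card W ≤ 4 := by
      by_contra hgt
      have : 5 * (5 * 5) ≤ Nat.card W * (Nat.card W * Nat.card W) :=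
        Nat.mul_le_mul (by omega) (Nat.mul_le_mul (by omega) (by omega))
      omega
    interval_cases hW : Nat.card W <;> omega
  obtain ⟨v, hv0, hva, hvq⟩ := hfour
  have closed : ∀ w, a w = w → q w = w → a (R pc w) = R pc w ∧ q (R pc w) = R pc w := by
    intro w h1 h2
    have e1 : a (R pc w) = R pc w := by rw [← cq, h2]
    refine ⟨e1, ?_⟩
    have e : a (a (q (R pc w))) = a (R pc w) := by rw [← ca, h1]
    rwa [(sq _).1, e1] at e
  by_cases hd : R pc v = v
  · exact ⟨v, hv0, hva, hvq, hd⟩
  have hd1 : R pc v - v ≠ 0 := sub_ne_zero.2 hd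
  have hd2 : a (R pc v - v) = R pc v - v ∧ q (R pc v - v) = R pc v - v := by
    simp only [map_sub, (closed v hva hvq).1, (closed v hva hvq).2, hva, hvq, and_self]
  by_cases he : R pc (R pc v - v) = R pc v - v
  · exact ⟨_, hd1, hd2.1, hd2.2, he⟩
  refine ⟨R pc (R pc v - v) - (R pc v - v), sub_ne_zero.2 he, ?_, ?_, ?_⟩
  · rw [map_sub, (closed _ hd2.1 hd2.2).1, hd2.1]
  · rw [map_sub, (closed _ hd2.1 hd2.2).2, hd2.2]
  · have h3 : ∀ w : V0, w + w + w = 0 := fun w => by
      funext j; exact (show ∀ x : ZMod 3, x + x + x = 0 by decide) _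
    simp only [map_sub, hc3]
    refine sub_eq_zero.1 ?_
    calc v - R pc (R pc v) - (R pc (R pc v) - R pc v) - (R pc (R pc v) - R pc v - (R pc v - v))
        = (R pc v + R pc v + R pc v) - (R pc (R pc v) + R pc (R pc v) + R pc (R pc v)) := by abel
      _ = 0 := by rw [h3, h3, sub_zero]

/-- Every element is a product of elements fixing the last point and `pt`. -/
theorem decompose (π : A6) : (π : Perm (Fin 6)) 5 = 5 ∨
    ∃ g h : A6, (g : Perm (Fin 6)) 5 = 5 ∧ (h : Perm (Fin 6)) 5 = 5 ∧ π = g * pt * h := by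
  by_cases h5 : (π : Perm (Fin 6)) 5 = 5
  · exact Or.inl h5
  refine Or.inr ⟨pf ^ (((π : Perm (Fin 6)) 5).val + 1),
    pt⁻¹ * (pf ^ (((π : Perm (Fin 6)) 5).val + 1))⁻¹ * π, (pf_pow_apply _ h5).2, ?_, by group⟩
  have e1 : ((pf ^ (((π : Perm (Fin 6)) 5).val + 1) : A6) : Perm (Fin 6))⁻¹
      ((π : Perm (Fin 6)) 5) = 4 := by
    rw [Perm.inv_eq_iff_eq, (pf_pow_apply _ h5).1]
  simp only [Subgroup.coe_mul, Subgroup.coe_inv, Perm.mul_apply, e1]
  rw [Perm.inv_eq_iff_eq]
  exact (show (pt : Perm (Fin 6)) 5 = 4 by decide +kernel).symm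

/-- A faithful action is equivalent to the standard one. -/
theorem exists_equivariant (hR : ∀ π, (∀ v, R π v = v) → π = 1) :
    ∃ ψ : V0 →ₗ[ZMod 3] V0, Function.Bijective ψ ∧ ∀ π v, R π (ψ v) = ψ (act0 π v) := by
  obtain ⟨u, hu0, hua, huq, huc⟩ := exists_fixed (R := R)
  have hx : R pf (R pf u) ≠ R pf u := by
    intro e
    have h0 : R pf u = 0 := fixed_eq_zero hR e
    have h1 : R (pf ^ 4) (R pf u) = u := by
      rw [← R_mul_apply, ← pow_succ, pf_five, R_one_apply]
    rw [h0, map_zero] at h1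
    exact hu0 h1.symm
  set ψ := spread R (R pf u) with hψ
  have hinj : Function.Injective ψ := spread_injective R hx
  have hbij : Function.Bijective ψ := Finite.injective_iff_bijective.1 hinj
  have hfive : ∀ i : Fin 6, i ≠ 5 → five R (R pf u) i = R (pf ^ (i.val + 1)) u := fun i hi => by
    rw [five, if_neg hi, ← R_mul_apply, ← pow_succ]
  have hstab : ∀ π : A6, (π : Perm (Fin 6)) 5 = 5 → (π : Perm (Fin 6)) 4 = 4 → R π u = u := by
    intro π h5 h4
    have hm := stab_four π h5 h4 (Perm.mem_alternatingGroup.1 π.2)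
    have ecc : R pc (R pc u) = u := by rw [huc, huc]
    simp only [List.flatMap_cons, List.flatMap_nil, List.mem_append, List.mem_cons,
      List.not_mem_nil, or_false, one_mul] at hm
    rcases hm with (h | h | h) | (h | h | h) | (h | h | h) | (h | h | h)
    · rw [show π = 1 from Subtype.ext h, R_one_apply]
    · rw [show π = pc from Subtype.ext h, huc]
    · rw [show π = pc * pc from Subtype.ext h, R_mul_apply, ecc]
    · rw [show π = pa from Subtype.ext h, hua]
    · rw [show π = pa * pc from Subtype.ext h, R_mul_apply, huc, hua]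
    · rw [show π = pa * pc * pc from Subtype.ext h, R_mul_apply, R_mul_apply, huc, huc, hua]
    · rw [show π = pq from Subtype.ext h, huq]
    · rw [show π = pq * pc from Subtype.ext h, R_mul_apply, huc, huq]
    · rw [show π = pq * pc * pc from Subtype.ext h, R_mul_apply, R_mul_apply, huc, huc, huq]
    · rw [show π = pa * pq from Subtype.ext h, R_mul_apply, huq, hua]
    · rw [show π = pa * pq * pc from Subtype.ext h, R_mul_apply, R_mul_apply, huc, huq, hua]
    · rw [show π = pa * pq * pc * pc from Subtype.ext h, R_mul_apply, R_mul_apply, R_mul_apply, huc,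
        huc, huq, hua]
  have hmove : ∀ π : A6, (π : Perm (Fin 6)) 5 = 5 → ∀ i : Fin 6,
      R π (five R (R pf u) i) = five R (R pf u) ((π : Perm (Fin 6)) i) := by
    intro π h5 i
    by_cases hi : i = 5
    · subst hi
      rw [h5]; simp [five]
    have hj : (π : Perm (Fin 6)) i ≠ 5 := fun e => hi ((π : Perm (Fin 6)).injective (e.trans h5.symm))
    rw [hfive i hi, hfive _ hj]
    set g := pf ^ (((π : Perm (Fin 6)) i).val + 1) with hg
    set k := pf ^ (i.val + 1) with hk
    have hfix : R (g⁻¹ * π * k) u = u := by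
      refine hstab _ ?_ ?_
      · simp only [Subgroup.coe_mul, Subgroup.coe_inv, Perm.mul_apply]
        rw [(pf_pow_apply i hi).2, h5, Perm.inv_eq_iff_eq, (pf_pow_apply _ hj).2]
      · simp only [Subgroup.coe_mul, Subgroup.coe_inv, Perm.mul_apply]
        rw [(pf_pow_apply i hi).1, Perm.inv_eq_iff_eq, (pf_pow_apply _ hj).1]
    calc R π (R k u) = R (g * (g⁻¹ * π * k)) u := by
          rw [← R_mul_apply]; congr 2; group
      _ = R g u := by rw [R_mul_apply, hfix]
  have hfix5 : ∀ π : A6, (π : Perm (Fin 6)) 5 = 5 → ∀ v, R π (ψ v) = ψ (act0 π v) := by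
    intro π h5 v
    rw [hψ, spread_apply, spread_apply, map_sum]
    simp only [map_smul, hmove π h5]
    rw [← Equiv.sum_comp (π : Perm (Fin 6))
      (fun j => lift6 (act0 π v) j • five R (R pf u) j)]
    exact Finset.sum_congr rfl fun i _ => by rw [lift6_act0 h5, Equiv.symm_apply_apply]
  -- the last generator
  let E := LinearEquiv.ofBijective ψ hbij
  let U : V0 →ₗ[ZMod 3] V0 := (E.symm.toLinearMap ∘ₗ R pt) ∘ₗ ψ
  have hU : ∀ v, ψ (U v) = R pt (ψ v) := fun v => E.apply_symm_apply _
  have hUh : ∀ g g' : A6, (g : Perm (Fin 6)) 5 = 5 → (g' : Perm (Fin 6)) 5 = 5 →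
      pt * g = g' * pt → ∀ v, U (act0 g v) = act0 g' (U v) := by
    intro g g' h h' e v
    apply hinj
    rw [hU, ← hfix5 g h, ← R_mul_apply, e, R_mul_apply, ← hU, hfix5 g' h']
  obtain ⟨-, -, -, -, -, -, -, -, ea, eq', ec, ec2⟩ := relations
  obtain ⟨fa, fq, fc, ff, -⟩ := fixers
  obtain ⟨hw0a, hw0q, hw0c, hw1a, hw1q, -⟩ := w_facts
  have faq : ((pa * pq : A6) : Perm (Fin 6)) 5 = 5 := by
    simp only [Subgroup.coe_mul, Perm.mul_apply, fa, fq]
  have fc2 : ((pc ^ 2 : A6) : Perm (Fin 6)) 5 = 5 := by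
    simp only [pow_two, Subgroup.coe_mul, Perm.mul_apply, fc]
  have comb_eq : ∀ v, comb (U w0) (U w1) v = U v := fun v => by
    conv_rhs => rw [← coef_spec v]
    rw [map_add, map_add, map_add, map_smul, map_smul, map_smul, map_smul,
      hUh pc (pc ^ 2) fc fc2 ec, hUh (pc ^ 2) pc fc2 fc ec2]
    rfl
  have hy : act0 pa (U w0) = U w0 ∧ act0 pq (U w0) = U w0 ∧ act0 pc (U w0) = U w0 := by
    have h1 : act0 pa (U w0) = U w0 := by rw [← hUh pa pa fa fa ea, hw0a]
    have h2 : act0 (pa * pq) (U w0) = U w0 := by rw [← hUh pq _ fq faq eq', hw0q]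
    have h3 : act0 (pc ^ 2) (U w0) = U w0 := by rw [← hUh pc _ fc fc2 ec, hw0c]
    refine ⟨h1, ?_, ?_⟩
    · calc act0 pq (U w0) = act0 (pa * (pa * pq)) (U w0) := by
            rw [← mul_assoc, relations.1, one_mul]
        _ = U w0 := by rw [act0_mul, h2, h1]
    · calc act0 pc (U w0) = act0 (pc ^ 2 * pc ^ 2) (U w0) := by
            rw [← pow_add]
            congr 1
            rw [show 2 + 2 = 3 + 1 by norm_num, pow_succ, relations.2.2.2.1, one_mul]
        _ = U w0 := by rw [act0_mul, h3, h3]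
  have hz : act0 pa (U w1) = U w1 ∧ act0 (pa * pq) (U w1) = -U w1 :=
    ⟨by rw [← hUh pa pa fa fa ea, hw1a], by rw [← hUh pq _ fq faq eq', hw1q, map_neg]⟩
  have hstep : ∀ v, ψ (U (fF v)) = R (pt * pf) (ψ v) := fun v => by
    rw [hU, R_mul_apply, hfix5 pf ff, act0_pf]
  have hfivefold : ∀ v, fiveSteps (U w0) (U w1) v = v := by
    intro v
    apply hinj
    simp only [fiveSteps, comb_eq, hstep, ← R_mul_apply]
    rw [show pt * pf * (pt * pf * (pt * pf * (pt * pf * (pt * pf)))) = (pt * pf) ^ 5 by
      simp only [pow_succ, pow_zero, one_mul, mul_assoc], ptf_five, R_one_apply]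
  have hpt : ∀ v, R pt (ψ v) = ψ (act0 pt v) := fun v => by
    rw [← candidates _ _ hy hz hfivefold v, comb_eq, hU]
  refine ⟨ψ, hbij, fun π v => ?_⟩
  rcases decompose π with h5 | ⟨g, h, hg, hh, rfl⟩
  · exact hfix5 π h5 v
  · rw [R_mul_apply, R_mul_apply, act0_mul, act0_mul, hfix5 h hh, hpt, hfix5 g hg]

/-- A complement has a standard frame. -/
theorem exists_frame {H : Type*} [Group H] [Finite H] {T : Subgroup H} (hT : Hyp T)
    (D : Subgroup H) (hDN : D ≤ Subgroup.normalizer (T : Set H)) (hDT : D ⊓ T = ⊥)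
    (hD : Nat.card D = 360) :
    ∃ (d : A6 →* H) (e : Multiplicative V0 →* H), Frame T d e ∧ d.range = D := by
  classical
  set N := Subgroup.normalizer (T : Set H) with hN
  obtain ⟨hnorm, hsimple⟩ := hT.simple
  have hTN : T ≤ N := Subgroup.le_normalizer
  let φ : D →* N ⧸ T.subgroupOf N :=
    (QuotientGroup.mk' (T.subgroupOf N)).comp (Subgroup.inclusion hDN)
  have hφ : Function.Injective φ := by
    rw [injective_iff_map_eq_one]
    intro x hx
    have h1 : (x : H) ∈ T := Subgroup.mem_subgroupOf.1 ((QuotientGroup.eq_one_iff (Subgroup.inclusion hDN x)).1 hx)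
    have h2 : (x : H) ∈ D ⊓ T := ⟨x.2, h1⟩
    rw [hDT, Subgroup.mem_bot] at h2
    exact Subtype.ext h2
  have hcardq : Nat.card (N ⧸ T.subgroupOf N) = 360 := by
    have h := Subgroup.card_eq_card_quotient_mul_card_subgroup (T.subgroupOf N)
    rw [hT.card_N, Nat.card_congr (Subgroup.subgroupOfEquivOfLe hTN).toEquiv, hT.card_T] at h
    omega
  have hφb : Function.Bijective φ :=
    (Nat.bijective_iff_injective_and_card φ).2 ⟨hφ, hD.trans hcardq.symm⟩
  haveI := hsimple
  haveI : IsSimpleGroup D := (MulEquiv.ofBijective φ hφb).isSimpleGroup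
  obtain ⟨i6⟩ := Cfsg.Agent.S0497.result (G := D) hD
  let d : A6 →* H := D.subtype.comp i6.symm.toMonoidHom
  have hdrange : d.range = D := by
    rw [MonoidHom.range_comp, MonoidHom.range_eq_top.2 i6.symm.surjective,
      ← MonoidHom.range_eq_map, Subgroup.range_subtype]
  have hdinj : Function.Injective d := Subtype.coe_injective.comp i6.symm.injective
  have hdN : ∀ π, d π ∈ N := fun π => hDN (hdrange.le ⟨π, rfl⟩)
  -- linear coordinates on `T`
  letI : CommGroup T :=
    { (inferInstance : Group T) with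
      mul_comm := fun x y => Subtype.ext (hT.comm x x.2 y y.2) }
  letI : Module (ZMod 3) (Additive T) := AddCommGroup.zmodModule fun x => by
    apply Additive.toMul.injective
    rw [toMul_nsmul, toMul_zero]
    exact Subtype.ext (hT.cube _ (Additive.toMul x).2)
  haveI : Finite (Additive T) := Finite.of_equiv T Additive.ofMul
  haveI : Module.Finite (ZMod 3) (Additive T) := Module.Finite.of_finite
  have hrank : Module.finrank (ZMod 3) (Additive T) = 4 := by
    have h := Module.natCard_eq_pow_finrank (K := ZMod 3) (V := Additive T)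
    rw [show Nat.card (Additive T) = 81 from (Nat.card_congr Additive.toMul).trans hT.card_T,
      Nat.card_zmod, show (81 : ℕ) = 3 ^ 4 from rfl] at h
    exact (Nat.pow_right_injective (le_refl 2 |>.trans (by norm_num)) h).symm
  let b : V0 ≃ₗ[ZMod 3] Additive T :=
    (Module.finBasisOfFinrankEq (ZMod 3) (Additive T) hrank).equivFun.symm
  let e1 : Multiplicative V0 →* H :=
    T.subtype.comp (AddMonoidHom.toMultiplicativeLeft b.toAddEquiv.toAddMonoidHom)
  have e1inj : Function.Injective e1 := by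
    intro x y h
    exact b.injective (Additive.toMul.injective (Subtype.ext h))
  have e1mem : ∀ v, e1 v ∈ T := fun v => (Additive.toMul (b (Multiplicative.toAdd v))).2
  have e1range : e1.range = T := by
    refine le_antisymm (by rintro _ ⟨v, rfl⟩; exact e1mem v) fun t ht => ?_
    refine ⟨Multiplicative.ofAdd (b.symm (Additive.ofMul ⟨t, ht⟩)), ?_⟩
    show (Additive.toMul (b (b.symm (Additive.ofMul (⟨t, ht⟩ : T))))).1 = t
    rw [LinearEquiv.apply_symm_apply]
    rfl
  have hex : ∀ π v, ∃ w : V0,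
      e1 (Multiplicative.ofAdd w) = d π * e1 (Multiplicative.ofAdd v) * (d π)⁻¹ := by
    intro π v
    have hm : d π * e1 (Multiplicative.ofAdd v) * (d π)⁻¹ ∈ T :=
      (Subgroup.mem_normalizer_iff.1 (hdN π) _).1 (e1mem _)
    rw [← e1range] at hm
    obtain ⟨w, hw⟩ := hm
    exact ⟨Multiplicative.toAdd w, hw⟩
  choose r hr using hex
  have rinj : ∀ {x y : V0}, e1 (Multiplicative.ofAdd x) = e1 (Multiplicative.ofAdd y) → x = y :=
    fun h => Multiplicative.ofAdd.injective (e1inj h)
  have radd : ∀ π v w, r π (v + w) = r π v + r π w := fun π v w => rinj (by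
    rw [hr, ofAdd_add, ofAdd_add, map_mul, map_mul, hr, hr]; group)
  let R : A6 →* Module.End (ZMod 3) V0 :=
    { toFun := fun π => (AddMonoidHom.mk' (r π) (radd π)).toZModLinearMap 3
      map_one' := LinearMap.ext fun v => rinj (by
        show e1 (Multiplicative.ofAdd (r 1 v)) = e1 (Multiplicative.ofAdd v)
        rw [hr, map_one, one_mul, inv_one, mul_one])
      map_mul' := fun π σ => LinearMap.ext fun v => rinj (by
        show e1 (Multiplicative.ofAdd (r (π * σ) v)) = e1 (Multiplicative.ofAdd (r π (r σ v)))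
        rw [hr, hr, hr, map_mul]; group) }
  have hR : ∀ π, (∀ v, R π v = v) → π = 1 := by
    intro π h
    have hC : d π ∈ Subgroup.centralizer (T : Set H) := by
      refine Subgroup.mem_centralizer_iff.2 fun t ht => ?_
      obtain ⟨v, rfl⟩ : t ∈ e1.range := e1range.symm ▸ ht
      have h2 := hr π (Multiplicative.toAdd v)
      rw [show r π (Multiplicative.toAdd v) = Multiplicative.toAdd v from h _] at h2
      simp only [ofAdd_toAdd] at h2
      exact (mul_inv_eq_iff_eq_mul.1 h2.symm).symm
    rw [hT.cent] at hC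
    have h2 : d π ∈ D ⊓ T := ⟨hdrange.le ⟨π, rfl⟩, hC⟩
    rw [hDT, Subgroup.mem_bot] at h2
    exact (map_eq_one_iff d hdinj).1 h2
  obtain ⟨ψ, hψ, heq⟩ := exists_equivariant hR
  let e : Multiplicative V0 →* H := e1.comp (AddMonoidHom.toMultiplicative ψ.toAddMonoidHom)
  refine ⟨d, e, ⟨hdinj, ?_, ?_, by rw [hdrange]; exact hDN, fun π v => ?_⟩, hdrange⟩
  · exact e1inj.comp hψ.1
  · refine le_antisymm (by rintro _ ⟨v, rfl⟩; exact e1mem _) fun t ht => ?_
    obtain ⟨w, rfl⟩ : t ∈ e1.range := e1range.symm ▸ ht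
    obtain ⟨v, hv⟩ := hψ.2 (Multiplicative.toAdd w)
    exact ⟨Multiplicative.ofAdd v, congrArg e1 (congrArg Multiplicative.ofAdd hv)⟩
  · show d π * e1 (Multiplicative.ofAdd (ψ v)) * (d π)⁻¹ = e1 (Multiplicative.ofAdd (ψ (act0 π v)))
    rw [← heq, ← hr]
    rfl

end CfsgLib.U43Recog
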