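import Cfsg.Agent.Lib.U43Recog.OrbitTables
import Cfsg.Agent.Lib.U43Recog.Module
import Mathlib.GroupTheory.PGroup
import Mathlib.GroupTheory.Perm.Cycle.Type
import Mathlib.GroupTheory.Index

/-!
Recognition of `PSU₄(3)`: the cosets of the normaliser are the standard 112 points, with the standard action
of the normaliser.
-/

set_option autoImplicit false
set_option maxHeartbeats 1000000
set_option linter.unusedSectionVars false

namespace CfsgLib.U43Recog

variable {H : Type*} [Group H] [Finite H] {T : Subgroup H}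

theorem modEq_fixed {f : H} (hf : orderOf f = 5) {S : Subgroup H}
    (hS : f ∈ Subgroup.normalizer (S : Set H)) :
    Nat.card ↥S ≡ Nat.card {s : ↥S // f * s * f⁻¹ = s} [MOD 5] := by
  have hle : Subgroup.zpowers f ≤ Subgroup.normalizer (S : Set H) := Subgroup.zpowers_le.2 hS
  letI : MulAction ↥(Subgroup.zpowers f) ↥S :=
    MulAction.compHom ↥S (S.normalizerMonoidHom.comp (Subgroup.inclusion hle))
  have hp : IsPGroup 5 ↥(Subgroup.zpowers f) := IsPGroup.of_card (n := 1) (by
    rw [Nat.card_zpowers, hf, pow_one])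
  haveI : Fact (Nat.Prime 5) := ⟨by norm_num⟩
  refine (hp.card_modEq_card_fixedPoints ↥S).trans (show _ ≡ _ [MOD 5] from ?_)
  rw [Nat.ModEq]
  refine congrArg (· % 5) ?_
  refine Nat.card_congr (Equiv.subtypeEquivRight fun s => ?_)
  constructor
  · intro h
    exact congrArg Subtype.val (h ⟨f, Subgroup.mem_zpowers f⟩)
  · rintro h ⟨g, hg⟩
    refine Subtype.ext ?_
    show g * (s : H) * g⁻¹ = s
    have hc : Commute f (s : H) := mul_inv_eq_iff_eq_mul.1 h
    obtain ⟨n, rfl⟩ := Subgroup.mem_zpowers_iff.1 hg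
    rw [(hc.zpow_left n).eq, mul_inv_cancel_right]

theorem divisors_81_mod {m : ℕ} (h : m ∣ 81) (h' : m % 5 = 1) : m = 1 ∨ m = 81 := by
  have : m ∈ Nat.divisors 81 := Nat.mem_divisors.2 ⟨h, by norm_num⟩
  rw [show Nat.divisors 81 = ({1, 3, 9, 27, 81} : Finset ℕ) by decide +kernel] at this
  simp only [Finset.mem_insert, Finset.mem_singleton] at this
  omega

theorem eq_or_neg_of_ker {a b : V0} (ha : a ≠ 0) (hb : b ≠ 0)
    (h : ∀ v, dot4 a v = 0 → dot4 b v = 0) : b = a ∨ b = -a := by
  obtain ⟨u, hu⟩ : ∃ u, dot4 a u = 1 := by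
    revert ha; clear * - a; revert a; decide +kernel
  have key : ∀ v, dot4 b v = dot4 b u * dot4 a v := by
    intro v
    have h0 : dot4 b (v + (-dot4 a v) • u) = 0 := h _ (by rw [dot4_add, dot4_smul, hu]; ring)
    rw [dot4_add, dot4_smul] at h0
    linear_combination h0
  have hb' : ∀ j, b j = dot4 b u * a j := fun j => by
    rw [← dot4_single b j, key, dot4_single]
  generalize dot4 b u = c at hb'
  have hc3 : ∀ c : ZMod 3, c = 0 ∨ c = 1 ∨ c = -1 := by decide
  rcases hc3 c with rfl | rfl | rfl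
  · exact absurd (funext fun j => by rw [hb' j, zero_mul]; rfl) hb
  · exact Or.inl (funext fun j => by rw [hb' j, one_mul])
  · exact Or.inr (funext fun j => by rw [hb' j, Pi.neg_apply, neg_one_mul])

omit [Finite H] in
theorem smul_pow_fixed {α : Type*} [MulAction H α] {g : H} {r : α} (hg : g • r = r) (n : ℕ) : g ^ n • r = r := by
  induction n with
  | zero => rw [pow_zero, one_smul]
  | succ n ih => rw [pow_succ, mul_smul, hg, ih]

variable (hT : Hyp T)
include hT

theorem conj_mem {n : H} (hn : n ∈ Subgroup.normalizer (T : Set H)) {t : H} (ht : t ∈ T) :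
    n * t * n⁻¹ ∈ T := (Subgroup.mem_normalizer_iff.1 hn t).1 ht

theorem card_cosets : Nat.card (H ⧸ Subgroup.normalizer (T : Set H)) = 112 := by
  have e := Subgroup.card_eq_card_quotient_mul_card_subgroup (Subgroup.normalizer (T : Set H))
  rw [hT.card_H, hT.card_N] at e
  omega

omit [Finite H] hT in
theorem smul_base_iff (g : H) :
    g • ((1 : H) : H ⧸ Subgroup.normalizer (T : Set H)) = ((1 : H) : H ⧸ Subgroup.normalizer (T : Set H)) ↔
      g ∈ Subgroup.normalizer (T : Set H) := by
  rw [← MulAction.mem_stabilizer_iff, MulAction.stabilizer_quotient]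

/-- Only one coset is fixed. -/
theorem eq_base {x : H ⧸ Subgroup.normalizer (T : Set H)} (h : ∀ t ∈ T, t • x = x) :
    x = ((1 : H) : H ⧸ Subgroup.normalizer (T : Set H)) := by
  induction x using QuotientGroup.induction_on with
  | H g =>
    have hg : g⁻¹ ∈ Subgroup.normalizer (T : Set H) := hT.closed _ fun t ht => by
      have h2 := h t⁻¹ (T.inv_mem ht)
      rw [MulAction.Quotient.smul_coe, smul_eq_mul, QuotientGroup.eq] at h2
      simpa [mul_inv_rev, mul_assoc] using h2
    rw [QuotientGroup.eq, mul_one]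
    exact hg

theorem fpf {f : H} (hf : orderOf f = 5) (hfN : f ∈ Subgroup.normalizer (T : Set H)) {t : H} (ht : t ∈ T)
    (hc : f * t * f⁻¹ = t) : t = 1 := by
  have h := modEq_fixed hf hfN
  rw [hT.card_T] at h
  set S : Subgroup H := T ⊓ Subgroup.centralizer {f} with hS
  have e : Nat.card {s : ↥T // f * s * f⁻¹ = s} = Nat.card ↥S := Nat.card_congr
    { toFun := fun s => ⟨s.1.1, s.1.2, Subgroup.mem_centralizer_singleton_iff.2
        ((mul_inv_eq_iff_eq_mul.1 s.2).symm)⟩
      invFun := fun s => ⟨⟨s.1, s.2.1⟩, mul_inv_eq_iff_eq_mul.2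
        (Subgroup.mem_centralizer_singleton_iff.1 s.2.2).symm⟩
      left_inv := fun s => rfl
      right_inv := fun s => rfl }
  rw [e] at h
  have hdvd : Nat.card ↥S ∣ 81 := hT.card_T ▸ Subgroup.card_dvd_of_le inf_le_left
  rcases divisors_81_mod hdvd (by rw [← h]) with h1 | h1
  · have : t ∈ S := ⟨ht, Subgroup.mem_centralizer_singleton_iff.2 ((mul_inv_eq_iff_eq_mul.1 hc).symm)⟩
    rw [Subgroup.card_eq_one.1 h1] at this
    exact this
  · exfalso
    have hle : S = T := Subgroup.eq_of_le_of_card_ge inf_le_left (by rw [h1, hT.card_T])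
    have hfT : f ∈ T := by
      rw [← hT.cent]
      refine Subgroup.mem_centralizer_iff.2 fun s hs => ?_
      have hs' : s ∈ S := by rw [hle]; exact hs
      exact Subgroup.mem_centralizer_singleton_iff.1 hs'.2
    have := orderOf_dvd_of_pow_eq_one (hT.cube f hfT)
    rw [hf] at this
    omega

/-- An element of order five in the normaliser fixing another coset makes the group act freely on it. -/
theorem free_of_fixed {f : H} (hf : orderOf f = 5) (hfN : f ∈ Subgroup.normalizer (T : Set H))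
    {x : H ⧸ Subgroup.normalizer (T : Set H)} (hx : x ≠ ((1 : H) : H ⧸ Subgroup.normalizer (T : Set H)))
    (hfx : f • x = x) {t : H} (ht : t ∈ T) (htx : t • x = x) : t = 1 := by
  set W : Subgroup H := T ⊓ MulAction.stabilizer H x with hW
  have hfx' : f⁻¹ • x = x := inv_smul_eq_iff.2 hfx.symm
  have hfW : f ∈ Subgroup.normalizer (W : Set H) := Subgroup.mem_normalizer_iff.2 fun s => by
    simp only [hW, Subgroup.mem_inf, MulAction.mem_stabilizer_iff, ← Subgroup.mem_normalizer_iff.1 hfN s,
      mul_smul, hfx']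
    constructor
    · rintro ⟨h1, h2⟩
      exact ⟨h1, by rw [h2, hfx]⟩
    · rintro ⟨h1, h2⟩
      refine ⟨h1, ?_⟩
      have := congrArg (f⁻¹ • ·) h2
      simpa [hfx'] using this
  have h := modEq_fixed hf hfW
  have e : Nat.card {s : ↥W // f * s * f⁻¹ = s} = 1 := Nat.card_eq_one_iff_unique.2
    ⟨⟨fun a b => Subtype.ext (Subtype.ext ((fpf hT hf hfN a.1.2.1 a.2).trans (fpf hT hf hfN b.1.2.1 b.2).symm))⟩,
      ⟨⟨1, by simp⟩⟩⟩
  rw [e] at h
  rcases divisors_81_mod (hT.card_T ▸ Subgroup.card_dvd_of_le inf_le_left) h with h1 | h1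
  · have : t ∈ W := ⟨ht, htx⟩
    rw [Subgroup.card_eq_one.1 h1] at this
    exact this
  · exfalso
    have hle : W = T := Subgroup.eq_of_le_of_card_ge inf_le_left (by rw [h1, hT.card_T])
    exact hx (eq_base hT fun s hs => (show s ∈ W by rw [hle]; exact hs).2)

theorem exists_five_fixed : ∃ f x, orderOf f = 5 ∧ f ∈ Subgroup.normalizer (T : Set H) ∧
    x ≠ ((1 : H) : H ⧸ Subgroup.normalizer (T : Set H)) ∧ f • x = x := by
  haveI : Fact (Nat.Prime 5) := ⟨by norm_num⟩
  obtain ⟨f, hf⟩ := exists_prime_orderOf_dvd_card' (G := ↥(Subgroup.normalizer (T : Set H))) 5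
    (by rw [hT.card_N]; norm_num)
  have hf' : orderOf (f : H) = 5 := by rwa [Subgroup.orderOf_coe]
  have hp : IsPGroup 5 ↥(Subgroup.zpowers (f : H)) := IsPGroup.of_card (n := 1) (by
    rw [Nat.card_zpowers, hf', pow_one])
  have h := hp.card_modEq_card_fixedPoints (H ⧸ Subgroup.normalizer (T : Set H))
  rw [card_cosets hT] at h
  have hmem : ((1 : H) : H ⧸ Subgroup.normalizer (T : Set H)) ∈
      MulAction.fixedPoints ↥(Subgroup.zpowers (f : H)) (H ⧸ Subgroup.normalizer (T : Set H)) := fun g =>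
    (smul_base_iff (T := T) (g : H)).2 ((Subgroup.zpowers_le.2 f.2) g.2)
  obtain ⟨x, hx, hne⟩ := Set.exists_ne_of_one_lt_ncard (s := MulAction.fixedPoints
    ↥(Subgroup.zpowers (f : H)) (H ⧸ Subgroup.normalizer (T : Set H))) (by
      rw [← Nat.card_coe_set_eq]
      have h' : _ % 5 = _ % 5 := h
      omega) ((1 : H) : H ⧸ Subgroup.normalizer (T : Set H))
  exact ⟨f, x, hf', f.2, hne, hx ⟨f, Subgroup.mem_zpowers _⟩⟩

/-- The frame and the far points. -/
theorem exists_far : ∃ (d : A6 →* H) (e : Multiplicative V0 →* H) (x : H ⧸ Subgroup.normalizer (T : Set H)),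
    Frame T d e ∧ x ≠ ((1 : H) : H ⧸ Subgroup.normalizer (T : Set H)) ∧ (∀ π, d π • x = x) ∧
      (∀ n ∈ Subgroup.normalizer (T : Set H), ∃ t ∈ T, n • x = t • x) ∧
      (∀ t ∈ T, t • x = x → t = 1) ∧
      Subgroup.normalizer (T : Set H) ≤ e.range ⊔ d.range ∧
      ∃ f, orderOf f = 5 ∧ f ∈ d.range := by
  classical
  set N := Subgroup.normalizer (T : Set H) with hN
  obtain ⟨f, x, hf, hfN, hx, hfx⟩ := exists_five_fixed hT
  have hfree : ∀ t ∈ T, t • x = x → t = 1 := fun t ht h => free_of_fixed hT hf hfN hx hfx ht h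
  have hdec : ∀ n ∈ N, ∃ t ∈ T, n • x = t • x := by
    intro n hn
    by_contra hne
    push Not at hne
    have hfree' : ∀ t ∈ T, t • (n • x) = n • x → t = 1 := by
      intro t ht h
      have h1 := hfree (n⁻¹ * t * n⁻¹⁻¹) (conj_mem hT (inv_mem hn) ht) (by
        rw [inv_inv, mul_smul, mul_smul, h, inv_smul_smul])
      rw [inv_inv] at h1
      calc t = n * (n⁻¹ * t * n) * n⁻¹ := by group
        _ = 1 := by rw [h1]; group
    let F : ↥T ⊕ ↥T → H ⧸ N := Sum.elim (fun t => (t : H) • x) (fun t => (t : H) • (n • x))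
    have hinj : ∀ (y : H ⧸ N), (∀ t ∈ T, t • y = y → t = 1) → ∀ a b : ↥T, (a : H) • y = (b : H) • y → a = b := by
      intro y hy a b h
      have := hy ((b : H)⁻¹ * a) (T.mul_mem (T.inv_mem b.2) a.2) (by rw [mul_smul, h, inv_smul_smul])
      exact Subtype.ext (inv_mul_eq_one.1 this).symm
    have hF : Function.Injective F := by
      rintro (a | a) (b | b) h <;> simp only [F, Sum.elim_inl, Sum.elim_inr] at h
      · rw [hinj x hfree a b h]
      · refine absurd ?_ (hne ((b : H)⁻¹ * a) (T.mul_mem (T.inv_mem b.2) a.2))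
        rw [mul_smul, h, inv_smul_smul]
      · refine absurd ?_ (hne ((a : H)⁻¹ * b) (T.mul_mem (T.inv_mem a.2) b.2))
        rw [mul_smul, ← h, inv_smul_smul]
      · rw [hinj _ hfree' a b h]
    have := Nat.card_le_card_of_injective F hF
    rw [Nat.card_sum, hT.card_T, card_cosets hT] at this
    omega
  set D : Subgroup H := N ⊓ MulAction.stabilizer H x with hD
  have hTN : T ≤ N := Subgroup.le_normalizer
  have hDT : D ⊓ T = ⊥ := (Subgroup.eq_bot_iff_forall _).2 fun g hg => hfree g hg.2 hg.1.2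
  have hDcard : Nat.card ↥D = 360 := by
    have e : Nat.card (↥T × ↥D) = Nat.card ↥N := Nat.card_eq_of_bijective
      (fun p => ⟨p.1.1 * p.2.1, N.mul_mem (hTN p.1.2) p.2.2.1⟩)
      ⟨by
        rintro ⟨a, b⟩ ⟨a', b'⟩ h
        have h' : (a : H) * b = a' * b' := congrArg Subtype.val h
        have hm : (a' : H)⁻¹ * a = b' * (b : H)⁻¹ := by
          rw [inv_mul_eq_iff_eq_mul, ← mul_assoc, ← h', mul_inv_cancel_right]
        have h1 : (a' : H)⁻¹ * a = 1 := by
          have hmem : (a' : H)⁻¹ * a ∈ D ⊓ T :=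
            ⟨by rw [hm]; exact D.mul_mem b'.2 (D.inv_mem b.2), T.mul_mem (T.inv_mem a'.2) a.2⟩
          rwa [hDT, Subgroup.mem_bot] at hmem
        have ea : a = a' := Subtype.ext (inv_mul_eq_one.1 h1).symm
        subst ea
        exact Prod.ext rfl (Subtype.ext (mul_left_cancel h')), by
        rintro ⟨n, hn⟩
        obtain ⟨t, ht, htx⟩ := hdec n hn
        refine ⟨(⟨t, ht⟩, ⟨t⁻¹ * n, N.mul_mem (N.inv_mem (hTN ht)) hn, ?_⟩), Subtype.ext (by simp)⟩
        show (t⁻¹ * n) • x = x
        rw [mul_smul, htx, inv_smul_smul]⟩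
    rw [Nat.card_prod, hT.card_T, hT.card_N] at e
    omega
  obtain ⟨d, e, F, hrange⟩ := exists_frame hT D inf_le_left hDT hDcard
  refine ⟨d, e, x, F, hx, fun π => ?_, hdec, hfree, fun n hn => ?_, f, hf, ?_⟩
  · have : d π ∈ D := hrange ▸ MonoidHom.mem_range.2 ⟨π, rfl⟩
    exact this.2
  · obtain ⟨t, ht, htx⟩ := hdec n hn
    rw [show n = t * (t⁻¹ * n) by group]
    refine Subgroup.mul_mem_sup (by rw [F.e_range]; exact ht) ?_
    rw [hrange]
    exact ⟨N.mul_mem (N.inv_mem (hTN ht)) hn, by
      show (t⁻¹ * n) • x = x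
      rw [mul_smul, htx, inv_smul_smul]⟩
  · rw [hrange]
    exact ⟨hfN, hfx⟩

/-- The permutation representation on the standard points. -/
theorem exists_rep : ∃ (d : A6 →* H) (e : Multiplicative V0 →* H) (ρ : H →* Equiv.Perm Pt), Rep T d e ρ := by
  classical
  set N := Subgroup.normalizer (T : Set H) with hN
  obtain ⟨d, e, x, F, hx, hdx, hdec, hfree, hgen, f, hf, hfd⟩ := exists_far hT
  haveI : Fact (Nat.Prime 5) := ⟨by norm_num⟩
  set x0 : H ⧸ N := ((1 : H) : H ⧸ N) with hx0
  set Ev : V0 → H := fun v => e (Multiplicative.ofAdd v) with hEv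
  have Eadd : ∀ v w, Ev (v + w) = Ev v * Ev w := fun v w => by simp [hEv]
  have E0 : Ev 0 = 1 := by simp [hEv]
  have Emem : ∀ v, Ev v ∈ T := fun v => F.e_range ▸ MonoidHom.mem_range.2 ⟨_, rfl⟩
  have Esurj : ∀ t ∈ T, ∃ v, Ev v = t := fun t ht => by
    rw [← F.e_range] at ht
    obtain ⟨v, rfl⟩ := ht
    exact ⟨v.toAdd, rfl⟩
  have Einj : Function.Injective Ev := fun v w h => Multiplicative.ofAdd.injective (F.e_inj h)
  have hTN : T ≤ N := Subgroup.le_normalizer
  have hdN : ∀ π, d π ∈ N := fun π => F.d_le ⟨π, rfl⟩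
  have hEd : ∀ π v, d π * Ev v = Ev (act0 π v) * d π := fun π v => by
    rw [hEv]; exact mul_inv_eq_iff_eq_mul.1 (F.conj π v)
  have hact : ∀ π v, act0 π (act0 π⁻¹ v) = v := fun π v => Einj (by
    have h1 := F.conj π (act0 π⁻¹ v)
    have h2 := F.conj π⁻¹ v
    rw [map_inv, inv_inv] at h2
    show e _ = e _
    rw [← h1, ← h2]; group)
  have hbase : ∀ n ∈ N, n • x0 = x0 := fun n hn => (smul_base_iff n).2 hn
  set Fa : V0 → H ⧸ N := fun v => Ev v • x with hFa
  have Fa_inj : Function.Injective Fa := fun v w h => by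
    have h1 := hfree (Ev (-w + v)) (Emem _) (by
      simp only [hFa] at h
      rw [Eadd, mul_smul, h, ← mul_smul, ← Eadd, neg_add_cancel, E0, one_smul])
    have := Einj (h1.trans E0.symm)
    rwa [neg_add_eq_zero, eq_comm] at this
  have Fa_ne : ∀ v, Fa v ≠ x0 := fun v h => hx (by
    have := congrArg ((Ev v)⁻¹ • ·) h
    simp only [hFa, inv_smul_smul] at this
    rw [this]; exact hbase _ (N.inv_mem (hTN (Emem v))))
  have hFaN : ∀ n ∈ N, ∀ v, ∃ w, n • Fa v = Fa w := by
    intro n hn v
    obtain ⟨w, hw⟩ := Esurj _ (conj_mem hT hn (Emem v))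
    obtain ⟨t, ht, htx⟩ := hdec n hn
    obtain ⟨u, rfl⟩ := Esurj t ht
    refine ⟨w + u, ?_⟩
    simp only [hFa]
    rw [← mul_smul, show n * Ev v = n * Ev v * n⁻¹ * n by group, ← hw, mul_smul, htx, ← mul_smul, ← Eadd]
  -- the near points
  let near : H ⧸ N → Prop := fun r => r ≠ x0 ∧ ∀ v, r ≠ Fa v
  have near_smul : ∀ n ∈ N, ∀ r, near r → near (n • r) := by
    intro n hn r hr
    refine ⟨fun h => hr.1 ?_, fun v h => ?_⟩
    · rw [← inv_smul_smul n r, h, hbase _ (N.inv_mem hn)]
    · obtain ⟨w, hw⟩ := hFaN n⁻¹ (N.inv_mem hn) v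
      exact hr.2 w (by rw [← inv_smul_smul n r, h, hw])
  have hR : Nat.card {r // near r} = 30 := by
    let S : Set (H ⧸ N) := insert x0 (Set.range Fa)
    have hcS : S.ncard = 82 := by
      rw [Set.ncard_insert_of_notMem (by rintro ⟨v, hv⟩; exact Fa_ne v hv), Set.ncard_range_of_injective Fa_inj]
      simp
    have e1 : {r // near r} ≃ ↥(Sᶜ) := Equiv.subtypeEquivRight fun r => by
      simp only [near, S, Set.mem_compl_iff, Set.mem_insert_iff, Set.mem_range, not_or, not_exists, ne_eq]
      exact and_congr Iff.rfl (forall_congr' fun v => not_congr eq_comm)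
    rw [Nat.card_congr e1, Nat.card_coe_set_eq, Set.ncard_compl, hcS, card_cosets hT]
  have no_five : ∀ g ∈ N, orderOf g = 5 → ∀ r, near r → g • r ≠ r := by
    intro g hg ho r hr hgr
    have hfr := fun t (ht : t ∈ T) h => free_of_fixed hT ho hg hr.1 hgr (t := t) ht h
    have := Nat.card_le_card_of_injective (fun v : V0 => (⟨Ev v • r, near_smul _ (hTN (Emem v)) r hr⟩ : {r // near r}))
      (fun v w h => by
        have h' : Ev v • r = Ev w • r := congrArg Subtype.val h
        have h1 := hfr (Ev (-w + v)) (Emem _) (by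
          rw [Eadd, mul_smul, h', ← mul_smul, ← Eadd, neg_add_cancel, E0, one_smul])
        have := Einj (h1.trans E0.symm)
        rwa [neg_add_eq_zero, eq_comm] at this)
    rw [hR] at this
    simp at this
  -- every near point has a triple
  have Hexa : ∀ r, near r → ∃ a : V0, a ≠ 0 ∧ ∀ v, Ev v • r = r ↔ dot4 a v = 0 := by
    intro r hr
    let K : AddSubgroup V0 :=
      { carrier := {v | Ev v • r = r}
        zero_mem' := by simp [E0]
        add_mem' := fun {v w} hv hw => by
          simp only [Set.mem_setOf_eq] at hv hw ⊢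
          rw [Eadd, mul_smul, hw, hv]
        neg_mem' := fun {v} hv => by
          simp only [Set.mem_setOf_eq] at hv ⊢
          conv_lhs => rw [← hv]
          rw [← mul_smul, ← Eadd, neg_add_cancel, E0, one_smul] }
    have hfN : f ∈ N := F.d_le hfd
    let Φ : Fin 5 × (V0 ⧸ K) → {r // near r} := fun p =>
      ⟨(f ^ (p.1 : ℕ) * Ev p.2.out) • r,
        near_smul _ (N.mul_mem (N.pow_mem hfN _) (hTN (Emem _))) r hr⟩
    have hΦ : Function.Injective Φ := by
      have key : ∀ (i j : Fin 5) (a b : V0), (i : ℕ) ≤ j → (f ^ (i : ℕ) * Ev a) • r = (f ^ (j : ℕ) * Ev b) • r →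
          i = j ∧ -b + a ∈ K := by
        intro i j a b hij h
        obtain ⟨k, hk⟩ := Nat.le.dest hij
        rw [← hk, pow_add, mul_assoc, mul_smul, mul_smul (f ^ (i : ℕ)), smul_left_cancel_iff] at h
        have hg : (Ev (-a) * (f ^ k * Ev b)) • r = r := by
          rw [mul_smul, ← h, ← mul_smul, ← Eadd, neg_add_cancel, E0, one_smul]
        rcases Nat.eq_zero_or_pos k with rfl | hk0
        · refine ⟨Fin.ext (by omega), ?_⟩
          rw [pow_zero, one_mul] at h
          show Ev (-b + a) • r = r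
          rw [Eadd, mul_smul, h, ← mul_smul, ← Eadd, neg_add_cancel, E0, one_smul]
        exfalso
        set g := Ev (-a) * (f ^ k * Ev b) with hg_def
        have hgN : g ∈ N := N.mul_mem (hTN (Emem _)) (N.mul_mem (N.pow_mem hfN _) (hTN (Emem _)))
        have hpow : ∀ m : ℕ, ∃ t ∈ T, g ^ m = f ^ (k * m) * t := by
          intro m
          induction m with
          | zero => exact ⟨1, T.one_mem, by simp⟩
          | succ m ih =>
            obtain ⟨t, ht, e⟩ := ih
            refine ⟨(f ^ k)⁻¹ * (t * Ev (-a)) * f ^ k * Ev b, T.mul_mem ?_ (Emem b), ?_⟩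
            · have := conj_mem hT (N.inv_mem (N.pow_mem hfN k)) (T.mul_mem ht (Emem (-a)))
              rwa [inv_inv] at this
            · rw [pow_succ, e, hg_def, Nat.mul_succ, pow_add]; group
        have hf5 : f ^ 5 = 1 := by rw [← hf]; exact pow_orderOf_eq_one f
        obtain ⟨t5, ht5, e5⟩ := hpow 5
        rw [mul_comm k 5, pow_mul, hf5, one_pow, one_mul] at e5
        have h405 : (g ^ 81) ^ 5 = 1 := by
          rw [← pow_mul, show 81 * 5 = 5 * (3 * 27) by norm_num, pow_mul, pow_mul, e5, hT.cube t5 ht5, one_pow]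
        have hne : g ^ 81 ≠ 1 := by
          intro h1
          have hgT : g ∈ T := by
            have : g = g ^ 81 * ((g ^ 5) ^ 16)⁻¹ := by
              rw [← pow_mul, eq_mul_inv_iff_mul_eq, ← pow_succ']
            rw [this, h1, one_mul, e5]
            exact T.inv_mem (T.pow_mem ht5 _)
          have hfk : f ^ k ∈ T := by
            have : f ^ k = (Ev (-a))⁻¹ * g * (Ev b)⁻¹ := by rw [hg_def]; group
            rw [this]
            exact T.mul_mem (T.mul_mem (T.inv_mem (Emem _)) hgT) (T.inv_mem (Emem _))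
          have h3 := hT.cube _ hfk
          rw [← pow_mul] at h3
          have := orderOf_dvd_of_pow_eq_one h3
          rw [hf] at this
          have := j.isLt
          omega
        exact no_five _ (N.pow_mem hgN 81) (orderOf_eq_prime h405 hne) r hr (smul_pow_fixed hg 81)
      rintro ⟨i, p⟩ ⟨j, p'⟩ h
      have h' := congrArg Subtype.val h
      have : i = j ∧ (-p'.out + p.out ∈ K ∨ -p.out + p'.out ∈ K) := by
        rcases le_total (i : ℕ) j with hij | hij
        · exact ⟨(key i j _ _ hij h').1, Or.inl (key i j _ _ hij h').2⟩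
        · exact ⟨(key j i _ _ hij h'.symm).1.symm, Or.inr (key j i _ _ hij h'.symm).2⟩
      refine Prod.ext this.1 ?_
      show p = p'
      rw [← QuotientAddGroup.out_eq' p, ← QuotientAddGroup.out_eq' p']
      rcases this.2 with h2 | h2
      · exact (QuotientAddGroup.eq.2 h2).symm
      · exact QuotientAddGroup.eq.2 h2
    have hle := Nat.card_le_card_of_injective Φ hΦ
    rw [Nat.card_prod, Nat.card_fin, hR] at hle
    have hdvd : Nat.card (V0 ⧸ K) ∣ 81 := by
      have := AddSubgroup.card_quotient_dvd_card K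
      simpa using this
    have hne1 : Nat.card (V0 ⧸ K) ≠ 1 := by
      intro h1
      refine hr.1 (eq_base hT fun t ht => ?_)
      obtain ⟨v, rfl⟩ := Esurj t ht
      haveI : Subsingleton (V0 ⧸ K) := (Nat.card_eq_one_iff_unique.1 h1).1
      have : ((v : V0) : V0 ⧸ K) = 0 := Subsingleton.elim _ _
      exact (QuotientAddGroup.eq_zero_iff v).1 this
    have h3 : Nat.card (V0 ⧸ K) = 3 := by
      have : Nat.card (V0 ⧸ K) ∈ Nat.divisors 81 := Nat.mem_divisors.2 ⟨hdvd, by norm_num⟩
      rw [show Nat.divisors 81 = ({1, 3, 9, 27, 81} : Finset ℕ) by decide +kernel] at this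
      simp only [Finset.mem_insert, Finset.mem_singleton] at this
      omega
    obtain ⟨u, hu⟩ : ∃ u, u ∉ K := by
      by_contra hc
      push Not at hc
      exact hne1 (Nat.card_eq_one_iff_unique.2 ⟨⟨fun a b => by
        induction a using QuotientAddGroup.induction_on
        induction b using QuotientAddGroup.induction_on
        exact QuotientAddGroup.eq.2 (hc _)⟩, ⟨0⟩⟩)
    have hsm : ∀ (c : ZMod 3) (v : V0), v ∈ K → c • v ∈ K := fun c v hv => by
      rw [← ZMod.natCast_zmod_val c, Nat.cast_smul_eq_nsmul]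
      exact K.nsmul_mem hv _
    have hcc : ∀ c : ZMod 3, c • u ∈ K → c = 0 := fun c hc => by
      by_contra h0
      have hc2 : ∀ c : ZMod 3, c ≠ 0 → c * c = 1 := by decide
      have := hsm c _ hc
      rw [smul_smul, hc2 c h0, one_smul] at this
      exact hu this
    have hbij : Function.Bijective fun c : ZMod 3 => ((c • u : V0) : V0 ⧸ K) :=
      (Nat.bijective_iff_injective_and_card _).2 ⟨fun c c' h => by
        have h1 := hcc (-c + c') (by rw [add_smul, neg_smul]; exact QuotientAddGroup.eq.1 h)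
        rwa [neg_add_eq_zero] at h1, by rw [h3]; simp⟩
    choose c hc using fun j : Fin 4 => hbij.2 ((Pi.single j 1 : V0) : V0 ⧸ K)
    have hmem : ∀ v : V0, -(dot4 c v • u) + v ∈ K := by
      intro v
      have h1 : ∀ j, v j • (-(c j • u) + Pi.single j 1) ∈ K := fun j => hsm _ _ (QuotientAddGroup.eq.1 (hc j))
      convert K.add_mem (K.add_mem (K.add_mem (h1 0) (h1 1)) (h1 2)) (h1 3) using 1
      funext j
      fin_cases j <;> simp [dot4] <;> ring
    have hiff : ∀ v, v ∈ K ↔ dot4 c v = 0 := by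
      intro v
      constructor
      · intro hv
        refine hcc _ ?_
        have := K.sub_mem hv (hmem v)
        rwa [show v - (-(dot4 c v • u) + v) = dot4 c v • u by abel] at this
      · intro hv
        have := hmem v
        rwa [hv, zero_smul, neg_zero, zero_add] at this
    exact ⟨c, fun h0 => hu ((hiff u).2 (by rw [h0]; simp [dot4])), hiff⟩
  have hclass : ∀ r, near r → ∃ p : Fin 10, ∀ v, Ev v • r = r ↔ chi p v = 0 := by
    intro r hr
    obtain ⟨a, ha, hiff⟩ := Hexa r hr
    rcases functional_orbit a with h0 | ⟨p, hp⟩ | h11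
    · exact absurd h0 ha
    · refine ⟨p, fun v => ?_⟩
      rw [hiff, chi_eq_dot]
      rcases hp with rfl | rfl
      · rfl
      · rw [show dot4 (-chiVec p) v = -dot4 (chiVec p) v by simp [dot4]; ring, neg_eq_zero]
    exfalso
    set L := (permList.map fun π => clsN (pullVec π a)).dedup with hL
    have hsel : ∀ i : Fin 11, ∃ π : A6, clsN (pullVec π a) = L.get (Fin.castLE h11 i) := fun i => by
      have hm : L.get (Fin.castLE h11 i) ∈ permList.map fun π => clsN (pullVec π a) :=
        List.mem_dedup.1 (List.get_mem _ _)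
      obtain ⟨π, -, hπ⟩ := List.mem_map.1 hm
      exact ⟨π, hπ⟩
    choose π hπ using hsel
    have hiff' : ∀ i v, Ev v • (d (π i) • r) = d (π i) • r ↔ dot4 (pullVec (π i) a) v = 0 := fun i v => by
      rw [dot4_pullVec, ← hiff, ← mul_smul]
      conv_lhs => rw [← hact (π i) v, ← hEd, mul_smul, smul_left_cancel_iff]
    have hne : ∀ i, pullVec (π i) a ≠ 0 := fun i h0 => by
      refine (near_smul _ (hdN (π i)) r hr).1 (eq_base hT fun t ht => ?_)
      obtain ⟨v, rfl⟩ := Esurj t ht
      exact (hiff' i v).2 (by rw [h0]; simp [dot4])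
    have hun : ∀ i, ∃ u, dot4 (pullVec (π i) a) u = 1 := fun i => by
      have := hne i
      revert this
      generalize pullVec (π i) a = b
      clear * - b; revert b; decide +kernel
    choose u hu using hun
    have := Nat.card_le_card_of_injective (fun p : Fin 11 × ZMod 3 =>
      (⟨Ev (p.2 • u p.1) • (d (π p.1) • r), near_smul _ (hTN (Emem _)) _ (near_smul _ (hdN _) r hr)⟩ :
        {r // near r})) (by
      rintro ⟨i, c⟩ ⟨j, c'⟩ h
      have h' : Ev (c • u i) • (d (π i) • r) = Ev (c' • u j) • (d (π j) • r) := congrArg Subtype.val h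
      have hker : ∀ v, dot4 (pullVec (π i) a) v = 0 → dot4 (pullVec (π j) a) v = 0 := by
        intro v hv
        rw [← hiff'] at hv ⊢
        have hcomm : ∀ (a b : V0) (z : H ⧸ N), Ev a • (Ev b • z) = Ev b • (Ev a • z) := fun a b z => by
          rw [← mul_smul, ← mul_smul, ← Eadd, ← Eadd, add_comm]
        have h1 := congrArg (Ev v • ·) h'
        replace h1 : Ev v • (Ev (c • u i) • (d (π i) • r)) = Ev v • (Ev (c' • u j) • (d (π j) • r)) := h1
        rw [hcomm v (c • u i), hv, h', hcomm v (c' • u j), smul_left_cancel_iff] at h1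
        exact h1.symm
      have hij : i = j := by
        have hcl : clsN (pullVec (π i) a) = clsN (pullVec (π j) a) := by
          rcases eq_or_neg_of_ker (hne i) (hne j) hker with e | e <;> rw [e]
          rw [clsN_neg]
        rw [hπ, hπ] at hcl
        exact Fin.castLE_injective h11 ((List.nodup_dedup _).injective_get hcl)
      subst hij
      have h2 : Ev (-(c' • u i) + c • u i) • (d (π i) • r) = d (π i) • r := by
        rw [Eadd, mul_smul, h', ← mul_smul, ← Eadd, neg_add_cancel, E0, one_smul]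
      rw [hiff', dot4_add, ← neg_smul, dot4_smul, dot4_smul, hu] at h2
      exact Prod.ext rfl (by linear_combination h2))
    rw [hR, Nat.card_prod] at this
    simp at this
  -- properties of a fixed triple
  let Cls : Fin 10 → H ⧸ N → Prop := fun p r => near r ∧ ∀ v, Ev v • r = r ↔ chi p v = 0
  have cls_d : ∀ π p r, Cls p r → Cls (tripleAct π p).1 (d π • r) := fun π p r hr =>
    ⟨near_smul _ (hdN π) r hr.1, fun v => by
      conv_lhs => rw [← mul_smul, ← hact π v, ← hEd, mul_smul, smul_left_cancel_iff, hr.2]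
      conv_rhs => rw [← hact π v, chi_act0]
      cases (tripleAct π p).2 <;> simp⟩
  have cls_E : ∀ p r v w, Cls p r → chi p v = chi p w → Ev v • r = Ev w • r := fun p r v w hr h => by
    have h1 : Ev (-w + v) • r = r := (hr.2 _).2 (by
      rw [chi_add, ← neg_one_smul (ZMod 3) w, chi_smul, h]; ring)
    conv_rhs => rw [← h1, ← mul_smul, ← Eadd, add_neg_cancel_left]
  have cls_E' : ∀ p r v w, Cls p r → Ev v • r = Ev w • r → chi p v = chi p w := fun p r v w hr h => by
    have h1 := (hr.2 (-w + v)).1 (by rw [Eadd, mul_smul, h, ← mul_smul, ← Eadd, neg_add_cancel, E0, one_smul])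
    rw [chi_add, ← neg_one_smul (ZMod 3) w, chi_smul] at h1
    linear_combination h1
  have cls_inj : ∀ p q r, Cls p r → Cls q r → p = q := fun p q r hp hq => by
    refine chi_eq_of_ker p q (eq_or_neg_of_ker ?_ ?_ fun v => ?_)
    · intro h0
      obtain ⟨v, hv⟩ := chi_unit p
      rw [chi_eq_dot, h0] at hv
      simp [dot4] at hv
    · intro h0
      obtain ⟨v, hv⟩ := chi_unit q
      rw [chi_eq_dot, h0] at hv
      simp [dot4] at hv
    · rw [← chi_eq_dot, ← chi_eq_dot, ← hp.2, hq.2]; exact id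
  have cls_shift : ∀ p r v, Cls p r → Cls p (Ev v • r) := fun p r v hr =>
    ⟨near_smul _ (hTN (Emem v)) r hr.1, fun w => by
      rw [← mul_smul, ← Eadd, add_comm, Eadd, mul_smul, smul_left_cancel_iff]; exact hr.2 w⟩
  choose u hu using chi_unit
  obtain ⟨r1, hr1⟩ : ∃ r1, Cls 0 r1 := by
    haveI : Nonempty {r // near r} := (Nat.card_pos_iff.1 (by rw [hR]; norm_num)).1
    obtain ⟨⟨r, hr⟩⟩ := ‹Nonempty {r // near r}›
    obtain ⟨p, hp⟩ := hclass r hr
    obtain ⟨π, -, hπ⟩ := triple_reach p
    have e := tripleAct_inv (π := π) (p := 0) (p' := p) (s := (tripleAct π 0).2) (Prod.ext hπ rfl)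
    exact ⟨d π⁻¹ • r, by have := cls_d π⁻¹ p r ⟨hr, hp⟩; rwa [e] at this⟩
  choose πp hπp hπp' using triple_reach
  have orbit : ∀ (rep : Fin 10 → H ⧸ N) (hrep : ∀ p, Cls p (rep p)),
      Function.Bijective (fun q : Fin 10 × ZMod 3 =>
        (⟨Ev (q.2 • u q.1) • rep q.1, (cls_shift _ _ _ (hrep q.1)).1⟩ : {r // near r})) := by
    intro rep hrep
    refine (Nat.bijective_iff_injective_and_card _).2 ⟨?_, by rw [hR, Nat.card_prod]; simp⟩
    rintro ⟨p, c⟩ ⟨q, c'⟩ h
    have h' : Ev (c • u p) • rep p = Ev (c' • u q) • rep q := congrArg Subtype.val h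
    have hpq : p = q := cls_inj p q _ (cls_shift p _ (c • u p) (hrep p))
      (by rw [h']; exact cls_shift q _ _ (hrep q))
    subst hpq
    have := cls_E' p _ _ _ (hrep p) h'
    rw [chi_smul, chi_smul, hu, mul_one, mul_one] at this
    rw [this]
  have cls_zero : ∀ r, Cls 0 r → ∀ r', Cls 0 r' → ∃ c : ZMod 3, r' = Ev (c • u 0) • r := by
    intro r hr r' hr'
    let rep : Fin 10 → H ⧸ N := fun p => if p = 0 then r else d (πp p) • r
    have hrep : ∀ p, Cls p (rep p) := fun p => by
      by_cases h0 : p = 0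
      · subst h0; simp only [rep, if_pos]; exact hr
      · simp only [rep, if_neg h0]
        have := cls_d (πp p) 0 r hr
        rwa [hπp' p] at this
    obtain ⟨⟨q, c⟩, hq⟩ := (orbit rep hrep).2 ⟨r', hr'.1⟩
    have hq' : Ev (c • u q) • rep q = r' := congrArg Subtype.val hq
    have h0 : q = 0 := cls_inj q 0 r' (hq' ▸ cls_shift q _ _ (hrep q)) hr'
    subst h0
    exact ⟨c, by rw [← hq']; simp [rep]⟩
  have move : ∀ π p r v, Cls p r → d π • (Ev v • r) = Ev (act0 π v) • (d π • r) := fun π p r v _ => by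
    rw [← mul_smul, hEd, mul_smul]
  have hchi : ∀ π v, tripleAct π 0 = (0, true) → chi 0 (act0 π v) = chi 0 v := fun π v h => by
    have := chi_act0 π 0 v
    rw [h] at this
    exact this
  -- the point fixed by the stabiliser of a triple
  obtain ⟨r0, hr0, hfix⟩ : ∃ r0, Cls 0 r0 ∧ ∀ π s, tripleAct π 0 = (0, s) → d π • r0 = r0 := by
    obtain ⟨k, hk⟩ := cls_zero r1 hr1 (d sigma0 • r1) (by
      have := cls_d sigma0 0 r1 hr1
      rwa [sigma0_spec] at this)
    set r0 := Ev ((2 * k) • u 0) • r1 with hr0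
    have hc0 : Cls 0 r0 := cls_shift 0 _ _ hr1
    have hs : d sigma0 • r0 = r0 := by
      rw [hr0, move sigma0 0 r1 _ hr1, hk, ← mul_smul, ← Eadd]
      refine cls_E 0 r1 _ _ hr1 ?_
      have := chi_act0 sigma0 0 ((2 * k) • u 0)
      rw [sigma0_spec] at this
      rw [chi_add, this]
      simp only [cond_false, chi_smul, hu, mul_one]
      have h3 : ∀ x : ZMod 3, -(2 * x) + x = 2 * x := by decide
      exact h3 k
    have hinv : ∀ π, tripleAct π 0 = (0, true) → π * π = 1 → d π • r0 = r0 := by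
      intro π hπ h2
      obtain ⟨c, hc⟩ := cls_zero r0 hc0 (d π • r0) (by
        have := cls_d π 0 r0 hc0
        rwa [hπ] at this)
      have e : d π • (d π • r0) = r0 := by rw [← mul_smul, ← map_mul, h2, map_one, one_smul]
      rw [hc, move π 0 r0 _ hc0, hc, ← mul_smul, ← Eadd] at e
      have h1 := (hc0.2 _).1 e
      rw [chi_add, hchi π _ hπ, chi_smul, hu, mul_one] at h1
      have h3 : ∀ x : ZMod 3, x + x = 0 → x = 0 := by decide
      rw [hc, h3 c h1, zero_smul, E0, one_smul]
    have hpos : ∀ π, tripleAct π 0 = (0, true) → d π • r0 = r0 := by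
      intro π hπ
      obtain ⟨a, -, b, -, rfl, ha, hb, ha2, hb2⟩ := stab_triple_gen π hπ
      rw [map_mul, mul_smul, hinv b hb hb2, hinv a ha ha2]
    refine ⟨r0, hc0, fun π s hπ => ?_⟩
    cases s
    · have h1 : tripleAct (sigma0⁻¹ * π) 0 = (0, true) := by
        rw [tripleAct_mul, hπ, tripleAct_inv sigma0_spec]
        rfl
      rw [show π = sigma0 * (sigma0⁻¹ * π) by group, map_mul, mul_smul, hpos _ h1, hs]
    · exact hpos π hπ
  let rep : Fin 10 → H ⧸ N := fun p => d (πp p) • r0
  have hrep : ∀ p, Cls p (rep p) := fun p => by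
    have := cls_d (πp p) 0 r0 hr0
    rwa [hπp' p] at this
  have rep_d : ∀ π p, d π • rep p = rep (tripleAct π p).1 := by
    intro π p
    set q := (tripleAct π p).1 with hq
    have e1 : tripleAct (πp p) 0 = (p, (tripleAct (πp p) 0).2) := Prod.ext (hπp' p) rfl
    have e2 := tripleAct_inv (show tripleAct (πp q) 0 = (q, (tripleAct (πp q) 0).2) from Prod.ext (hπp' q) rfl)
    have h := tripleAct_mul (πp q)⁻¹ (π * πp p) 0
    rw [tripleAct_mul π (πp p) 0, hπp' p, ← hq, e2] at h
    have := hfix _ _ h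
    show d π • (d (πp p) • r0) = d (πp q) • r0
    conv_rhs => rw [← this, ← mul_smul, ← map_mul, mul_inv_cancel_left, map_mul, mul_smul]
  let Ψ : Pt → H ⧸ N
    | none => x0
    | some (.inl (p, c)) => Ev (c • u p) • rep p
    | some (.inr v) => Fa v
  have hnear : ∀ (p : Fin 10) (c : ZMod 3), near (Ev (c • u p) • rep p) := fun p c => (cls_shift p _ _ (hrep p)).1
  have hΨ : Function.Bijective Ψ := by
    refine (Nat.bijective_iff_injective_and_card _).2 ⟨?_, by rw [card_cosets hT]; simp⟩
    rintro (_ | ⟨p, c⟩ | v) (_ | ⟨q, c'⟩ | w) h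
    · rfl
    · exact absurd h.symm (hnear q c').1
    · exact absurd h.symm (Fa_ne w)
    · exact absurd h (hnear p c).1
    · have := (orbit rep hrep).1 (a₁ := (p, c)) (a₂ := (q, c')) (Subtype.ext h)
      rw [this]
    · exact absurd h ((hnear p c).2 w)
    · exact absurd h (Fa_ne v)
    · exact absurd h.symm ((hnear q c').2 v)
    · rw [Fa_inj h]
  let φ : Pt ≃ H ⧸ N := Equiv.ofBijective Ψ hΨ
  let ρ : H →* Equiv.Perm Pt :=
    { toFun := fun g => (φ.trans (MulAction.toPerm g)).trans φ.symm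
      map_one' := Equiv.ext fun a => by simp
      map_mul' := fun g g' => Equiv.ext fun a => by simp [mul_smul] }
  have hρ : ∀ g a b, g • Ψ a = Ψ b → ρ g a = b := fun g a b h => φ.symm_apply_eq.2 h
  have hρ' : ∀ g a, Ψ (ρ g a) = g • Ψ a := fun g a => φ.apply_symm_apply (g • Ψ a)
  refine ⟨d, e, ρ, F, ?_, fun g => ?_, hgen, fun t a => ?_, fun π a => ?_, fun a => ?_⟩
  · rw [injective_iff_map_eq_one]
    intro g hg
    have hall : ∀ y : H ⧸ N, g • y = y := fun y => by
      obtain ⟨a, rfl⟩ := hΨ.2 y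
      rw [← hρ', hg]; rfl
    have hgN : g ∈ N := (smul_base_iff g).1 (hall x0)
    have hgC : g ∈ T := by
      rw [← hT.cent]
      refine Subgroup.mem_centralizer_iff.2 fun t ht => ?_
      have h1 : g * t * g⁻¹ * t⁻¹ = 1 := hfree _ (T.mul_mem (conj_mem hT hgN ht) (T.inv_mem ht)) (by
        have hgi : g⁻¹ • t⁻¹ • x = t⁻¹ • x := inv_smul_eq_iff.2 (hall _).symm
        rw [mul_smul, mul_smul, mul_smul, hgi, smul_inv_smul, hall x])
      rw [mul_inv_eq_one, mul_inv_eq_iff_eq_mul] at h1
      exact h1.symm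
    exact hfree g hgC (hall x)
  · constructor
    · intro h
      refine (smul_base_iff g).1 ?_
      have := hρ' g none
      rw [h] at this
      exact this.symm
    · intro h
      exact hρ g none none (hbase g h)
  · refine hρ _ _ _ ?_
    rcases a with _ | ⟨p, c⟩ | v
    · exact hbase _ (hTN (Emem t))
    · show Ev t • (Ev (c • u p) • rep p) = Ev ((c + chi p t) • u p) • rep p
      rw [← mul_smul, ← Eadd]
      exact cls_E p _ _ _ (hrep p) (by rw [chi_add, chi_smul, chi_smul, hu]; ring)
    · show Ev t • (Ev v • x) = Ev (v + t) • x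
      rw [← mul_smul, ← Eadd, add_comm]
  · refine hρ _ _ _ ?_
    rcases a with _ | ⟨p, c⟩ | v
    · exact hbase _ (hdN π)
    · show d π • (Ev (c • u p) • rep p) = Ev (_ • u _) • rep _
      rw [move π p _ _ (hrep p), rep_d]
      refine cls_E _ _ _ _ (hrep _) ?_
      rw [chi_act0, chi_smul, chi_smul, hu, hu, mul_one, mul_one]
    · show d π • (Ev v • x) = Ev (act0 π v) • x
      rw [← mul_smul, hEd, mul_smul, hdx]
  · obtain ⟨g, hg⟩ := QuotientGroup.mk_surjective (Ψ a)
    exact ⟨g, hρ g none a (by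
      rw [← hg]
      show g • ((1 : H) : H ⧸ N) = _
      rw [MulAction.Quotient.smul_coe, smul_eq_mul, mul_one])⟩

end CfsgLib.U43Recog
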