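import Cfsg.Agent.Lib.U43Recog.Normal
import Cfsg.Agent.Lib.U43Recog.Orbit

/-!
Recognition of `PSU₄(3)`: two groups with a weakly closed elementary abelian subgroup of order 81 as in the
hypotheses are isomorphic.
-/

set_option autoImplicit false

namespace CfsgLib.U43Recog

/-- Two groups satisfying the hypotheses, one of them simple, are isomorphic. -/
theorem nonempty_mulEquiv {H H' : Type*} [Group H] [Finite H] [Group H'] [Finite H'] {T : Subgroup H}
    {T' : Subgroup H'} (hT : Hyp T) (hT' : Hyp T') [IsSimpleGroup H'] : Nonempty (H ≃* H') := by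
  obtain ⟨d, e, ρ, R⟩ := exists_rep hT
  obtain ⟨d', e', ρ', R'⟩ := exists_rep hT'
  exact nonempty_of_reps hT' hT R R'

end CfsgLib.U43Recog
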