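import Cfsg.Agent.Lib.U43Recog.Defs
import Cfsg.Agent.Lib.SchurMult.U43.ThreeGroup
import Mathlib.GroupTheory.SpecificGroups.Alternating.Simple

/-!
The model `PSU₄(3)` satisfies the recognition hypotheses, at the module of the all-one vector.
-/

set_option autoImplicit false
set_option linter.unusedSectionVars false
set_option maxRecDepth 100000

set_option maxHeartbeats 1000000

namespace CfsgLib.U43Recog

open CfsgLib.SchurMult.U43 CfsgLib.SchurMult.U43.Three CfsgLib.ClassicalForms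

theorem finite_equiv : Finite (V6 ≃ₗ[K] V6) :=
  Finite.of_injective (fun g => (g : V6 → V6)) DFunLike.coe_injective

theorem finite_G0 : Finite G0 := Nat.finite_of_card_ne_zero (by rw [card_G0]; norm_num)

/-- The elements used to move the line. -/
def mover : Fin 10 → Om6 :=
  ![gg, sgn 0 1, sgn 1 2, sgn 2 3, sgn 3 4, sgn 4 5,
    pA ⟨Equiv.swap 0 1 * Equiv.swap 1 2, Equiv.Perm.mem_alternatingGroup.2 (by decide)⟩,
    pA ⟨Equiv.swap 1 2 * Equiv.swap 2 3, Equiv.Perm.mem_alternatingGroup.2 (by decide)⟩,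
    pA ⟨Equiv.swap 2 3 * Equiv.swap 3 4, Equiv.Perm.mem_alternatingGroup.2 (by decide)⟩,
    pA ⟨Equiv.swap 3 4 * Equiv.swap 4 5, Equiv.Perm.mem_alternatingGroup.2 (by decide)⟩]

/-- A sign change as a function. -/
def sFun (i j : Fin 6) (x : V6) : V6 := fun k => (bif sp i j k then -1 else 1) * x k

/-- The formulas. -/
def moverFun : Fin 10 → V6 → V6 :=
  ![ggFun, sFun 0 1, sFun 1 2, sFun 2 3, sFun 3 4, sFun 4 5, pFun (Equiv.swap 0 1 * Equiv.swap 1 2),
    pFun (Equiv.swap 1 2 * Equiv.swap 2 3), pFun (Equiv.swap 2 3 * Equiv.swap 3 4),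
    pFun (Equiv.swap 3 4 * Equiv.swap 4 5)]

/-- The words moving the line to every singular line. -/
def moverWords : List (List (Fin 10)) :=
  [[], [0], [1], [2], [3], [4], [5], [0,0], [3,0], [4,0],
    [7,0], [8,0], [0,1], [2,1], [4,1], [0,2], [3,2], [4,2], [5,2], [0,3],
    [4,3], [5,4], [7,4], [0,5], [1,0,0], [2,0,0], [3,0,0], [4,0,0], [7,0,0], [4,3,0],
    [7,3,0], [8,3,0], [7,4,0], [8,4,0], [4,7,0], [8,7,0], [9,7,0], [2,8,0], [6,8,0], [8,8,0],
    [0,0,1], [2,0,1], [3,0,1], [7,0,1], [0,2,1], [4,2,1], [0,0,2], [1,0,2], [3,0,2], [5,0,2],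
    [7,0,2], [8,0,2], [9,0,2], [0,3,2], [5,4,2], [0,5,2], [1,0,3], [2,0,5], [7,0,5], [0,3,0,0],
    [0,7,0,0], [0,7,3,0], [8,7,3,0], [9,7,3,0], [6,8,3,0], [8,8,3,0], [9,8,3,0], [0,7,4,0], [8,7,4,0], [9,7,4,0],
    [0,8,4,0], [6,8,4,0], [9,8,4,0], [8,4,7,0], [9,4,7,0], [0,8,7,0], [6,8,7,0], [9,8,7,0], [9,9,7,0], [0,2,8,0],
    [9,6,8,0], [2,0,0,1], [7,7,0,1], [8,7,0,1], [7,0,2,1], [8,3,0,2], [7,5,0,2], [9,7,0,2], [8,8,0,2], [9,8,0,2],
    [0,9,0,2], [9,9,0,2], [8,0,7,3,0], [6,8,7,3,0], [9,8,7,3,0], [9,6,8,3,0], [0,8,8,3,0], [0,9,8,3,0], [8,0,7,4,0], [9,0,7,4,0],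
    [9,8,7,4,0], [8,0,8,4,0], [9,0,8,4,0], [9,6,8,4,0], [9,8,4,7,0], [0,9,4,7,0], [1,0,8,7,0], [2,0,8,7,0], [8,0,8,7,0], [6,6,8,7,0],
    [9,7,5,0,2], [6,8,8,0,2]]

/-- The images. -/
def lineImgs : List V6 := moverWords.map fun l => l.foldr (fun i x => moverFun i x) u0

theorem lineImgs_length : lineImgs.length = 112 := by decide +kernel

theorem lineImgs_apart : ∀ i j : Fin 112, i ≠ j →
    lineImgs.getD i.val 0 ≠ lineImgs.getD j.val 0 ∧ lineImgs.getD i.val 0 ≠ -lineImgs.getD j.val 0 := by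
  decide +kernel

theorem mover_apply (i : Fin 10) (x : V6) : ((mover i).1 : V6 ≃ₗ[K] V6) x = moverFun i x := by
  fin_cases i <;> simp only [mover, moverFun, Matrix.cons_val_zero, Matrix.cons_val, Fin.reduceFinMk, Fin.zero_eta,
    Fin.isValue] <;> first
    | exact gg_apply x
    | exact funext fun k => sgn_apply _ _ x k
    | exact funext fun k => permHom_apply _ x k

theorem word_apply (l : List (Fin 10)) :
    (((l.map mover).prod).1 : V6 ≃ₗ[K] V6) u0 = l.foldr (fun i x => moverFun i x) u0 := by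
  induction l with
  | nil => simp [orth_one_apply]
  | cons a l ih => rw [List.map_cons, List.prod_cons, mul_apply, ih, mover_apply]; rfl

/-- The stabiliser of the line. -/
def lineStab : Subgroup Om6 where
  carrier := {g | (g.1 : V6 ≃ₗ[K] V6) u0 = u0 ∨ (g.1 : V6 ≃ₗ[K] V6) u0 = -u0}
  one_mem' := Or.inl (by rw [Subgroup.coe_one, orth_one_apply])
  mul_mem' := by
    intro a b ha hb
    simp only [Set.mem_ofPred_eq, mul_apply] at ha hb ⊢
    rcases hb with hb | hb <;> rw [hb]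
    · exact ha
    · rw [map_neg, neg_eq_iff_eq_neg, neg_inj]
      exact ha.symm
  inv_mem' := by
    intro a ha
    have key : ((a⁻¹).1 : V6 ≃ₗ[K] V6) ((a.1 : V6 ≃ₗ[K] V6) u0) = u0 := by
      rw [← mul_apply, inv_mul_cancel, Subgroup.coe_one, orth_one_apply]
    rcases ha with h | h <;> rw [h] at key
    · exact Or.inl key
    · exact Or.inr (by rw [← neg_inj, neg_neg, ← map_neg]; exact key)

theorem minus_mem : qm.ker ≤ lineStab := fun g hg => by
  rcases qm_eq_one.1 hg with rfl | rfl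
  · exact one_mem _
  · exact Or.inr (minus_apply u0)

theorem index_ge : 112 ≤ (lineStab.map qm).index := by
  haveI := finite_equiv
  rw [Subgroup.index_map_eq (f := qm) _ (QuotientGroup.mk'_surjective _) minus_mem, Subgroup.index]
  let f : Fin 112 → Om6 ⧸ lineStab := fun i => QuotientGroup.mk ((moverWords.getD i.val []).map mover).prod
  have hval : ∀ i : Fin 112, (((moverWords.getD i.val []).map mover).prod.1 : V6 ≃ₗ[K] V6) u0 =
      lineImgs.getD i.val 0 := fun i => by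
    have hi : i.val < moverWords.length :=
      lt_of_lt_of_eq i.2 (by rw [← lineImgs_length, lineImgs, List.length_map])
    rw [word_apply, lineImgs, List.getD_eq_getElem _ _ hi, List.getD_eq_getElem _ _ (by rwa [List.length_map]),
      List.getElem_map]
  have hf : Function.Injective f := by
    intro i j h
    by_contra hne
    obtain ⟨h1, h2⟩ := lineImgs_apart j i (Ne.symm hne)
    set a := ((moverWords.getD i.val []).map mover).prod with ha
    set b := ((moverWords.getD j.val []).map mover).prod with hb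
    have hk : a⁻¹ * b ∈ lineStab := QuotientGroup.eq.1 h
    have e : ((a * (a⁻¹ * b)).1 : V6 ≃ₗ[K] V6) u0 = (b.1 : V6 ≃ₗ[K] V6) u0 := by rw [mul_inv_cancel_left]
    rw [mul_apply] at e
    rcases hk with hk | hk <;> rw [hk] at e
    · exact h1 (by rw [← hval, ← hval, ← ha, ← hb, e])
    · exact h2 (by rw [← hval, ← hval, ← ha, ← hb, ← e, map_neg])
  calc 112 = Nat.card (Fin 112) := by rw [Nat.card_fin]
    _ ≤ _ := Nat.card_le_card_of_injective f hf

theorem card_stab_le : Nat.card ↥(lineStab.map qm) ≤ 29160 := by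
  have h := (lineStab.map qm).card_mul_index
  rw [card_G0] at h
  have h2 := Nat.mul_le_mul_left (Nat.card ↥(lineStab.map qm)) index_ge
  omega

theorem mem_map_iff {g : Om6} : qm g ∈ lineStab.map qm ↔ g ∈ lineStab := by
  refine ⟨fun h => ?_, fun h => Subgroup.mem_map_of_mem _ h⟩
  obtain ⟨k, hk, e⟩ := h
  have := minus_mem (show k⁻¹ * g ∈ qm.ker by rw [MonoidHom.mem_ker, map_mul, map_inv, e, inv_mul_cancel])
  have h2 := mul_mem hk this
  rwa [mul_inv_cancel_left] at h2

theorem wv_fix : ∀ c, sgFun (wv c) u0 = u0 := by decide +kernel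

theorem fixed_cert : ∀ v : V6,
    (∀ j : Fin 5, sgFun (wv (Pi.single j 1)) v = v ∨ sgFun (wv (Pi.single j 1)) v = -v) →
      v = 0 ∨ v = u0 ∨ v = -u0 := by
  decide +kernel

/-- A line fixed by the module is the chosen one. -/
theorem mem_stab_of_fix {g : Om6}
    (h : ∀ c, ∀ v, v = (g.1 : V6 ≃ₗ[K] V6) u0 → sgFun (wv c) v = v ∨ sgFun (wv c) v = -v) : g ∈ lineStab := by
  rcases fixed_cert _ (fun j => h (Pi.single j 1) _ rfl) with e | e
  · exfalso
    have h0 : u0 = (0 : V6) := (g.1 : V6 ≃ₗ[K] V6).injective (by rw [e, map_zero])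
    exact absurd (congrFun h0 0) (by decide)
  · exact e

theorem es_mem_stab (c : Fin 5 → K) : es (wv c) (wv_perp c) ∈ lineStab :=
  Or.inl (by rw [es_apply, wv_fix])

/-- An element conjugating the module into the stabiliser fixes the line. -/
theorem closed_line {g : G0} (h : ∀ x ∈ Eh.range, g * x * g⁻¹ ∈ lineStab.map qm) : g ∈ lineStab.map qm := by
  obtain ⟨a, rfl⟩ := QuotientGroup.mk'_surjective _ g
  refine Subgroup.mem_map_of_mem _ ?_
  rw [← inv_inv a]
  refine inv_mem (mem_stab_of_fix fun c v hv => ?_)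
  have hm := h _ ⟨Multiplicative.ofAdd c, rfl⟩
  rw [Eh_apply, ← map_mul, ← map_inv, ← map_mul, mem_map_iff] at hm
  have hm' : (a⁻¹.1 : V6 ≃ₗ[K] V6) (((a * es (wv c) (wv_perp c) * a⁻¹).1 : V6 ≃ₗ[K] V6) u0) =
      sgFun (wv c) v := by
    rw [hv, ← es_apply _ (wv_perp c), ← mul_apply, ← mul_apply]
    congr 2
    group
  rcases hm with e | e <;> rw [e] at hm'
  · exact Or.inl (by rw [← hm', hv])
  · exact Or.inr (by rw [← hm', hv, map_neg])

theorem Eh_range_comm : ∀ x ∈ Eh.range, ∀ y ∈ Eh.range, x * y = y * x := by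
  rintro _ ⟨a, rfl⟩ _ ⟨b, rfl⟩
  rw [← map_mul, ← map_mul, mul_comm]

theorem Eh_cube : ∀ x ∈ Eh.range, x ^ 3 = 1 := by
  rintro _ ⟨a, rfl⟩
  rw [← map_pow, show a ^ 3 = 1 from (by decide +kernel : ∀ c : Multiplicative (Fin 5 → K), c ^ 3 = 1) a, map_one]

theorem Eh_eq_one {c : Fin 5 → K} : Eh (Multiplicative.ofAdd c) = 1 ↔ ∀ i j, c i = c j := by
  refine ⟨fun h => indep (h ▸ one_mem _), fun h => ?_⟩
  obtain ⟨n, rfl⟩ : ∃ n : ℕ, c = fun _ => (n : K) :=
    ⟨(c 0).val, funext fun j => by rw [h j 0, ZMod.natCast_zmod_val]⟩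
  have hp := prod_eq fun _ => n
  rw [← hp]
  have hc : ∀ i j, Commute (dd 0 i) (dd 0 j) := fun i j => by
    have hm : ∀ i : Fin 6, dd 0 i ∈ Eh.range := fun i => by
      rcases Fin.eq_zero_or_eq_succ i with rfl | ⟨k, rfl⟩
      · exact ⟨1, by rw [map_one]; exact (mul_eq_left.1 (dd_mul 0 0 0)).symm⟩
      · exact ⟨_, (dd_zero k).symm⟩
    exact Eh_range_comm _ (hm i) _ (hm j)
  rw [← (hc 1 2).mul_pow, ← ((hc 1 3).mul_left (hc 2 3)).mul_pow,
    ← (((hc 1 4).mul_left (hc 2 4)).mul_left (hc 3 4)).mul_pow,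
    ← ((((hc 1 5).mul_left (hc 2 5)).mul_left (hc 3 5)).mul_left (hc 4 5)).mul_pow, dd_cyc, one_pow]

theorem card_Eh_range : Nat.card Eh.range = 81 := by
  have hk : Nat.card Eh.ker = 3 := by
    let f : K → Eh.ker := fun k => ⟨Multiplicative.ofAdd fun _ => k, Eh_eq_one.2 fun _ _ => rfl⟩
    rw [← Nat.card_eq_of_bijective f ⟨fun a b h => congrFun (congrArg (fun t : Eh.ker => t.1.toAdd) h) 0, fun x =>
      ⟨x.1.toAdd 0, Subtype.ext (Multiplicative.toAdd.injective (funext fun j => Eh_eq_one.1 x.2 0 j))⟩⟩]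
    simp
  have h := Subgroup.card_eq_card_quotient_mul_card_subgroup Eh.ker
  rw [Nat.card_congr (QuotientGroup.quotientKerEquivRange Eh).toEquiv, hk] at h
  simp [Nat.card_eq_fintype_card] at h ⊢
  omega

theorem dd_mem_range (i j : Fin 6) : dd i j ∈ Eh.range := by
  have hm : ∀ i : Fin 6, dd 0 i ∈ Eh.range := fun i => by
    rcases Fin.eq_zero_or_eq_succ i with rfl | ⟨k, rfl⟩
    · exact ⟨1, by rw [map_one]; exact (mul_eq_left.1 (dd_mul 0 0 0)).symm⟩
    · exact ⟨_, (dd_zero k).symm⟩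
  rw [show dd i j = (dd 0 i)⁻¹ * dd 0 j by rw [← dd_mul 0 i j, inv_mul_cancel_left]]
  exact mul_mem (inv_mem (hm i)) (hm j)

theorem Eh_range_le {L : Subgroup G0} (h : ∀ j : Fin 5, dd 0 j.succ ∈ L) : Eh.range ≤ L := by
  rintro _ ⟨c, rfl⟩
  rw [show c = Multiplicative.ofAdd fun j => ((c.toAdd j).val : K) from Multiplicative.toAdd.injective
    (funext fun j => by simp), ← prod_eq]
  exact mul_mem (mul_mem (mul_mem (mul_mem (pow_mem (h 0) _) (pow_mem (h 1) _)) (pow_mem (h 2) _)) (pow_mem (h 3) _))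
    (pow_mem (h 4) _)

theorem aa_mem_normalizer (π : A6) : aa π ∈ Subgroup.normalizer (Eh.range : Set G0) := by
  have hf : ∀ (π : A6) (x : G0), x ∈ Eh.range → aa π * x * (aa π)⁻¹ ∈ Eh.range := fun π x hx =>
    Eh_range_le (L := Eh.range.comap (MulAut.conj (aa π)).toMonoidHom)
      (fun j => by show aa π * dd 0 j.succ * (aa π)⁻¹ ∈ Eh.range; rw [dd_conj]; exact dd_mem_range _ _) hx
  rw [Subgroup.mem_normalizer_iff]
  refine fun x => ⟨hf π x, fun h => ?_⟩
  have := hf π⁻¹ _ h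
  rwa [map_inv, show (aa π)⁻¹ * (aa π * x * (aa π)⁻¹) * (aa π)⁻¹⁻¹ = x by group] at this

/-- The coordinates of an edge. -/
def edgeVec (i j : Fin 6) : Fin 5 → K := fun k =>
  (if j = k.succ then 1 else 0) - if i = k.succ then 1 else 0

theorem dd_eq (i j : Fin 6) : dd i j = Eh (Multiplicative.ofAdd (edgeVec i j)) := by
  rw [Eh_apply, dd]
  refine congrArg qm (es_ext _ _ fun k => ?_)
  revert i j k
  decide +kernel

theorem edge_cert : ∀ a b : Fin 6, ∀ j : Fin 5,
    (∀ k l, (edgeVec a b - edgeVec 0 j.succ) k = (edgeVec a b - edgeVec 0 j.succ) l) → a = 0 ∧ b = j.succ := by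
  decide +kernel

theorem eq_one_of_commute {π : A6} (h : ∀ x ∈ Eh.range, Commute (aa π) x) : π = 1 := by
  have key : ∀ j : Fin 5, π.1 0 = 0 ∧ π.1 j.succ = j.succ := by
    intro j
    refine edge_cert _ _ j (Eh_eq_one.1 ?_)
    have e := dd_conj π 0 j.succ
    rw [(h _ (dd_mem_range 0 j.succ)).eq, mul_inv_cancel_right, dd_eq, dd_eq] at e
    rw [ofAdd_sub, map_div, e, div_self']
  refine Subtype.ext (Equiv.ext fun i => ?_)
  rcases Fin.eq_zero_or_eq_succ i with rfl | ⟨k, rfl⟩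
  · exact (key 0).1
  · exact (key k).2

/-- The normaliser of the module: the stabiliser of the line, split by the permutations. -/
theorem normalizer_facts : Subgroup.normalizer (Eh.range : Set G0) = lineStab.map qm ∧
    Nat.card ↥(Subgroup.normalizer (Eh.range : Set G0)) = 29160 ∧
    ∀ g ∈ Subgroup.normalizer (Eh.range : Set G0), ∃ t ∈ Eh.range, ∃ π, g = t * aa π := by
  haveI := finite_G0
  set N := Subgroup.normalizer (Eh.range : Set G0)
  have hNS : N ≤ lineStab.map qm := fun g hg => closed_line fun x hx => by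
    obtain ⟨c, hc⟩ := (Subgroup.mem_normalizer_iff.1 hg x).1 hx
    rw [← hc, ← ofAdd_toAdd c, Eh_apply]
    exact Subgroup.mem_map_of_mem _ (es_mem_stab _)
  let f : Eh.range × A6 → N := fun p => ⟨p.1 * aa p.2, mul_mem (Subgroup.le_normalizer p.1.2) (aa_mem_normalizer p.2)⟩
  have hf : Function.Injective f := by
    rintro ⟨⟨t, ht⟩, π⟩ ⟨⟨t', ht'⟩, π'⟩ h
    have h' : t * aa π = t' * aa π' := congrArg Subtype.val h
    have hm : aa (π' * π⁻¹) ∈ Eh.range := by
      have e : aa (π' * π⁻¹) = t'⁻¹ * t := by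
        rw [map_mul, map_inv, eq_inv_mul_iff_mul_eq, ← mul_assoc, ← h', mul_inv_cancel_right]
      rw [e]
      exact mul_mem (inv_mem ht') ht
    obtain ⟨c, hc⟩ := hm
    have h1 : aa (π' * π⁻¹) = 1 := by
      rw [← hc, ← ofAdd_toAdd c]
      exact Eh_eq_one.2 (indep ⟨π' * π⁻¹, by rw [ofAdd_toAdd, hc]⟩)
    obtain rfl : π' = π := mul_inv_eq_one.1 (aa_injective (h1.trans (map_one aa).symm))
    obtain rfl : t = t' := mul_right_cancel h'
    rfl
  have hdom : Nat.card (Eh.range × A6) = 29160 := by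
    rw [Nat.card_prod, card_Eh_range, nat_card_alternatingGroup, Nat.card_fin]; rfl
  have hge : 29160 ≤ Nat.card N := hdom ▸ Nat.card_le_card_of_injective f hf
  have hle : Nat.card N ≤ Nat.card ↥(lineStab.map qm) := Subgroup.card_le_of_le hNS
  have hcard : Nat.card N = 29160 := le_antisymm (hle.trans card_stab_le) hge
  refine ⟨Subgroup.eq_of_le_of_card_ge hNS (card_stab_le.trans hge), hcard, fun g hg => ?_⟩
  obtain ⟨⟨t, π⟩, h⟩ := ((Nat.bijective_iff_injective_and_card f).2 ⟨hf, hdom.trans hcard.symm⟩).2 ⟨g, hg⟩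
  exact ⟨t, t.2, π, (congrArg Subtype.val h).symm⟩

/-- The model satisfies the hypotheses. -/
theorem exists_hyp : ∃ T : Subgroup G0, Hyp T := by
  haveI := finite_G0
  obtain ⟨hS, hN, hsplit⟩ := normalizer_facts
  refine ⟨Eh.range, card_G0, card_Eh_range, Eh_range_comm, Eh_cube, ?_, hN, ?_, fun g hg => ?_⟩
  · refine le_antisymm (fun g hg => ?_) fun g hg => Subgroup.mem_centralizer_iff.2 fun x hx => Eh_range_comm x hx g hg
    obtain ⟨t, ht, π, rfl⟩ := hsplit g (Subgroup.centralizer_le_normalizer _ hg)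
    have hπ : π = 1 := eq_one_of_commute fun x hx => by
      have h1 : Commute (t * aa π) x := (Subgroup.mem_centralizer_iff.1 hg x hx).symm
      have h2 := (show Commute t x from Eh_range_comm t ht x hx).inv_left.mul_left h1
      rwa [inv_mul_cancel_left] at h2
    rw [hπ, map_one, mul_one]
    exact ht
  · haveI hn : (Eh.range.subgroupOf (Subgroup.normalizer (Eh.range : Set G0))).Normal :=
      Subgroup.normal_subgroupOf_of_le_normalizer le_rfl
    refine ⟨hn, ?_⟩
    haveI : IsSimpleGroup A6 := alternatingGroup.isSimpleGroup (by simp)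
    let χ : A6 →* _ := (QuotientGroup.mk' (Eh.range.subgroupOf (Subgroup.normalizer (Eh.range : Set G0)))).comp
      (aa.codRestrict _ aa_mem_normalizer)
    have hχ : Function.Surjective χ := by
      intro y
      obtain ⟨g, rfl⟩ := QuotientGroup.mk'_surjective _ y
      obtain ⟨t, ht, π, hg⟩ := hsplit g g.2
      refine ⟨π, QuotientGroup.eq.2 ?_⟩
      rw [Subgroup.mem_subgroupOf]
      show (aa π)⁻¹ * (g : G0) ∈ Eh.range
      rw [hg, ← mul_assoc]
      have := (Subgroup.mem_normalizer_iff.1 (inv_mem (aa_mem_normalizer π)) t).1 ht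
      rwa [inv_inv] at this
    haveI : Nontrivial (↥(Subgroup.normalizer (Eh.range : Set G0)) ⧸
        Eh.range.subgroupOf (Subgroup.normalizer (Eh.range : Set G0))) := by
      rw [← Finite.one_lt_card_iff_nontrivial]
      have h := Subgroup.card_eq_card_quotient_mul_card_subgroup
        (Eh.range.subgroupOf (Subgroup.normalizer (Eh.range : Set G0)))
      rw [hN, Nat.card_congr (Subgroup.subgroupOfEquivOfLe (Subgroup.le_normalizer (H := Eh.range))).toEquiv,
        card_Eh_range] at h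
      omega
    exact IsSimpleGroup.isSimpleGroup_of_surjective χ hχ
  · rw [hS]
    exact closed_line fun x hx => hS ▸ hg x hx

end CfsgLib.U43Recog
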