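import Cfsg.Agent.Lib.U43Recog.Graph
import Mathlib.GroupTheory.Subgroup.Simple

/-!
Recognition of `PSU₄(3)`: an automorphism of the graph fixing the first point normalises the translations, so two
representations on the standard points have the same image.
-/

set_option autoImplicit false

namespace CfsgLib.U43Recog

theorem kind_aut {h : Equiv.Perm Pt} (hA : ∀ a b, Adj (h a) (h b) ↔ Adj a b) (h0 : h none = none) (x : Pt) :
    kind (h x) = kind x := by
  have hnear : ∀ y, kind y = 1 ↔ Adj none y := by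
    intro y; rcases y with _ | ⟨p, c⟩ | v <;> simp [kind, Adj]
  have hzero : ∀ y, kind y = 0 ↔ y = none := by
    intro y; rcases y with _ | ⟨p, c⟩ | v <;> simp [kind]
  have hle : ∀ y, kind y ≤ 2 := by
    intro y; rcases y with _ | ⟨p, c⟩ | v <;> simp [kind]
  have e0 : kind (h x) = 0 ↔ kind x = 0 := by
    rw [hzero, hzero]
    exact ⟨fun e => h.injective (e.trans h0.symm), fun e => by rw [e, h0]⟩
  have e1 : kind (h x) = 1 ↔ kind x = 1 := by
    rw [hnear, hnear]
    conv_lhs => rw [← h0]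
    exact hA none x
  have := hle x
  have := hle (h x)
  omega

theorem aut_conj {h τ : Equiv.Perm Pt} (hA : ∀ a b, Adj (h a) (h b) ↔ Adj a b) (h0 : h none = none) {t : V0}
    (hτ : ∀ x, τ x = trans t x) : ∃ w : V0, ∀ x, h (τ (h⁻¹ x)) = trans w x := by
  have hinv : ∀ y, kind (h⁻¹ y) = kind y := fun y => by
    conv_rhs => rw [show y = h (h⁻¹ y) by simp]
    rw [kind_aut hA h0]
  have hk : ∀ a b, Adj (h (τ (h⁻¹ a))) (h (τ (h⁻¹ b))) ↔ Adj a b := fun a b => by
    rw [hA, hτ, hτ, adj_trans, ← hA]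
    simp
  have hnear : ∀ q : Fin 10, ∃ s : ZMod 3, ∀ c, h (τ (h⁻¹ (nr q c))) = nr q (c + s) := by
    intro q
    obtain ⟨p, c₀, hp⟩ := of_kind_one (a := h⁻¹ (nr q 0)) (hinv _)
    have hline : ∀ c, ∃ c', h⁻¹ (nr q c) = nr p c' := by
      intro c
      rcases eq_or_ne c 0 with rfl | hc
      · exact ⟨c₀, hp⟩
      obtain ⟨p', c', hp'⟩ := of_kind_one (a := h⁻¹ (nr q c)) (hinv _)
      have hadj : Adj (h⁻¹ (nr q 0)) (h⁻¹ (nr q c)) := by
        rw [← hA]
        simp only [Equiv.Perm.inv_def, Equiv.apply_symm_apply]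
        exact ⟨rfl, Ne.symm hc⟩
      rw [hp, hp'] at hadj
      obtain ⟨rfl, -⟩ := hadj
      exact ⟨c', hp'⟩
    have hall : ∀ c', ∃ c, h (nr p c') = nr q c := by
      choose g hg using hline
      have hinj : Function.Injective g := fun a b e => by
        have h1 := (hg a).trans (by rw [e]) |>.trans (hg b).symm
        have h2 := h⁻¹.injective h1
        simpa [nr] using h2
      intro c'
      obtain ⟨c, rfl⟩ := (Finite.injective_iff_surjective.1 hinj) c'
      exact ⟨c, by rw [← hg c]; simp⟩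
    choose f hf using hall
    have hfinj : ∀ a b, f a = f b → a = b := fun a b e => by
      have := h.injective ((hf a).trans (by rw [e]) |>.trans (hf b).symm)
      simpa [nr] using this
    refine ⟨f (0 + chi p t) - f 0, fun c => ?_⟩
    obtain ⟨c', hc'⟩ := hline c
    have hc : c = f c' := by
      have h1 : h (nr p c') = nr q c := by rw [← hc']; simp
      rw [hf] at h1
      simpa [nr] using h1.symm
    rw [hc', hτ, show trans t (nr p c') = nr p (c' + chi p t) from rfl, hf, hc, shift_ok f hfinj (chi p t) 0 c']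
    simp
  choose s hs using hnear
  obtain ⟨w, hw⟩ := of_kind_two (a := h (τ (h⁻¹ (fr 0)))) (by rw [kind_aut hA h0, hτ, kind_trans, hinv]; rfl)
  have hzero : ∀ q, chi q (0 : V0) = 0 := by decide +kernel
  have hsw : ∀ q, chi q w = s q := by
    intro q
    have h1 := (hk (nr q 0) (fr 0)).2 (hzero q)
    rw [hs, hw] at h1
    change chi q w = 0 + s q at h1
    rw [h1, zero_add]
  refine ⟨w, fun x => ?_⟩
  rcases x with _ | ⟨q, c⟩ | v
  · show h (τ (h⁻¹ none)) = none
    rw [show h⁻¹ none = none from h.injective (by rw [h0]; simp), hτ]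
    exact h0
  · show h (τ (h⁻¹ (nr q c))) = nr q (c + chi q w)
    rw [hs, hsw]
  · obtain ⟨v', hv'⟩ := of_kind_two (a := h (τ (h⁻¹ (fr v)))) (by rw [kind_aut hA h0, hτ, kind_trans, hinv]; rfl)
    show h (τ (h⁻¹ (fr v))) = fr (v + w)
    rw [hv']
    refine congrArg fr (sub_eq_zero.1 (chi_sep _ fun q => ?_))
    have h1 := (hk (nr q (chi q v)) (fr v)).2 rfl
    rw [hs, hv'] at h1
    change chi q v' = chi q v + s q at h1
    have h2 := chi_plus q (v' - (v + w)) (v + w)
    rw [sub_add_cancel, h1, chi_plus q v w, hsw] at h2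
    simpa using h2

variable {H : Type*} [Group H] [Finite H] {T : Subgroup H} {d : A6 →* H} {e : Multiplicative V0 →* H}
  {ρ : H →* Equiv.Perm Pt} {H' : Type*} [Group H'] [Finite H'] {T' : Subgroup H'} {d' : A6 →* H'}
  {e' : Multiplicative V0 →* H'} {ρ' : H' →* Equiv.Perm Pt}

/-- The conjugates of the translations in one representation lie in the image of the other one. -/
theorem conj_translation_mem (R : Rep T d e ρ) (R' : Rep T' d' e' ρ') (g : H) (t : Multiplicative V0) :
    ρ (g * e t * g⁻¹) ∈ ρ'.range := by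
  obtain ⟨k, hk⟩ := R'.trans_all (ρ g none)
  set h := (ρ' k)⁻¹ * ρ g
  have hAinv : ∀ a b, Adj ((ρ' k)⁻¹ a) ((ρ' k)⁻¹ b) ↔ Adj a b := fun a b => by
    rw [← map_inv]; exact adj_invariant R' k⁻¹ a b
  have hA : ∀ a b, Adj (h a) (h b) ↔ Adj a b := fun a b =>
    (hAinv (ρ g a) (ρ g b)).trans (adj_invariant R g a b)
  have h0 : h none = none := by
    show (ρ' k)⁻¹ (ρ g none) = none
    rw [← hk]; simp
  obtain ⟨w, hw⟩ := aut_conj (τ := ρ (e t)) hA h0 (t := Multiplicative.toAdd t)
    (fun x => R.rho_e (Multiplicative.toAdd t) x)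
  refine ⟨k * e' (Multiplicative.ofAdd w) * k⁻¹, Equiv.ext fun x => ?_⟩
  simp only [map_mul, map_inv, Equiv.Perm.mul_apply]
  rw [R'.rho_e, ← hw]
  simp [h, Equiv.Perm.mul_apply]

/-- Two representations give isomorphic groups. -/
theorem nonempty_of_reps (hT' : Hyp T') (hT : Hyp T) (R : Rep T d e ρ) (R' : Rep T' d' e' ρ')
    [IsSimpleGroup H'] : Nonempty (H ≃* H') := by
  have hN : Subgroup.normalClosure (T' : Set H') = ⊤ := by
    rcases (Subgroup.normalClosure_normal (s := (T' : Set H'))).eq_bot_or_eq_top with h | h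
    · exfalso
      have hle : T' ≤ ⊥ := h ▸ Subgroup.subset_normalClosure
      have := Subgroup.card_le_of_le hle
      rw [hT'.card_T, Subgroup.card_bot] at this
      omega
    · exact h
  have hle : ρ'.range ≤ ρ.range := by
    have h1 : Subgroup.normalClosure (T' : Set H') ≤ ρ.range.comap ρ' := by
      rw [Subgroup.normalClosure, Subgroup.closure_le]
      intro x hx
      obtain ⟨y, hy, hyx⟩ := Group.mem_conjugatesOfSet_iff.1 hx
      rw [SetLike.mem_coe, ← R'.frame.e_range] at hy
      obtain ⟨t, rfl⟩ := hy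
      obtain ⟨c, rfl⟩ := isConj_iff.1 hyx
      exact conj_translation_mem R' R c t
    rw [hN, top_le_iff] at h1
    rintro _ ⟨y, rfl⟩
    exact (h1.ge (Subgroup.mem_top y) : y ∈ ρ.range.comap ρ')
  have heq : ρ'.range = ρ.range := by
    refine Subgroup.eq_of_le_of_card_ge hle ?_
    rw [← Nat.card_congr (MonoidHom.ofInjective R.inj).toEquiv,
      ← Nat.card_congr (MonoidHom.ofInjective R'.inj).toEquiv, hT.card_H, hT'.card_H]
  exact ⟨(MonoidHom.ofInjective R.inj).trans ((MulEquiv.subgroupCongr heq.symm).trans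
    (MonoidHom.ofInjective R'.inj).symm)⟩

end CfsgLib.U43Recog
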