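import Cfsg.Agent.Lib.U43Recog.Std
import Mathlib.LinearAlgebra.Matrix.Notation
import Mathlib.Tactic

/-!
Finite facts about the ten triples and the forty hyperplanes of the standard module of the alternating group of
degree six.
-/

set_option autoImplicit false
set_option maxRecDepth 100000
set_option maxHeartbeats 1000000

namespace CfsgLib.U43Recog

/-- The pairing. -/
def dot4 (a v : V0) : ZMod 3 := a 0 * v 0 + a 1 * v 1 + a 2 * v 2 + a 3 * v 3

theorem dot4_add (a v w : V0) : dot4 a (v + w) = dot4 a v + dot4 a w := by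
  simp only [dot4, Pi.add_apply]; ring

theorem dot4_smul (a v : V0) (c : ZMod 3) : dot4 a (c • v) = c * dot4 a v := by
  simp only [dot4, Pi.smul_apply, smul_eq_mul]; ring

theorem dot4_single (a : V0) (j : Fin 4) : dot4 a (Pi.single j 1) = a j := by
  fin_cases j <;> simp [dot4]

theorem lift6_add_tbl (v w : V0) (i : Fin 6) : lift6 (v + w) i = lift6 v i + lift6 w i := by
  fin_cases i <;> simp [lift6] <;> ring

theorem lift6_sum_tbl (v : V0) : ∑ i, lift6 v i = 0 := by
  simp [lift6, Fin.sum_univ_six]; ring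

theorem act0_add (π : A6) (v w : V0) : act0 π (v + w) = act0 π v + act0 π w := by
  funext j
  simp only [act0, proj4, Pi.add_apply, lift6_add_tbl]
  ring

/-- The action as an additive map. -/
def act0Hom (π : A6) : V0 →+ V0 := AddMonoidHom.mk' (act0 π) (act0_add π)

theorem act0_smul (π : A6) (c : ZMod 3) (v : V0) : act0 π (c • v) = c • act0 π v := by
  have h : ∀ n : ℕ, act0 π (n • v) = n • act0 π v := fun n => map_nsmul (act0Hom π) n v
  have e : ∀ w : V0, c • w = c.val • w := fun w => by
    conv_lhs => rw [← ZMod.natCast_zmod_val c]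
    exact Nat.cast_smul_eq_nsmul (ZMod 3) c.val w
  rw [e, e, h]

/-- The functional `a` composed with the inverse of an even permutation. -/
def pullVec (π : A6) (a : V0) : V0 := fun j => dot4 a (act0 π⁻¹ (Pi.single j 1))

theorem dot4_pullVec (π : A6) (a v : V0) : dot4 (pullVec π a) v = dot4 a (act0 π⁻¹ v) := by
  have hv : v = v 0 • Pi.single 0 1 + v 1 • Pi.single 1 1 + v 2 • Pi.single 2 1 + v 3 • Pi.single 3 1 := by
    funext j; fin_cases j <;> simp
  conv_rhs => rw [hv, act0_add, act0_add, act0_add, act0_smul, act0_smul, act0_smul, act0_smul, dot4_add,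
    dot4_add, dot4_add, dot4_smul, dot4_smul, dot4_smul, dot4_smul]
  simp only [dot4, pullVec]
  ring

/-- The vector of the linear form of a triple. -/
def chiVec (p : Fin 10) : V0 := fun j => chi p (Pi.single j 1)

theorem chi_eq_dot : ∀ (p : Fin 10) (v : V0), chi p v = dot4 (chiVec p) v := by decide +kernel

theorem chi_add (p : Fin 10) (v w : V0) : chi p (v + w) = chi p v + chi p w := by
  simp only [chi_eq_dot, dot4_add]

theorem chi_smul (p : Fin 10) (c : ZMod 3) (v : V0) : chi p (c • v) = c * chi p v := by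
  simp only [chi_eq_dot, dot4_smul]

theorem chi_unit : ∀ p : Fin 10, ∃ v : V0, chi p v = 1 := by decide +kernel

theorem chi_eq_of_ker : ∀ p q : Fin 10, (chiVec q = chiVec p ∨ chiVec q = -chiVec p) → p = q := by
  decide +kernel

/-- The number of a functional up to sign. -/
def clsN (a : V0) : ℕ :=
  min ((a 0).val + 3 * (a 1).val + 9 * (a 2).val + 27 * (a 3).val)
    ((-a 0).val + 3 * (-a 1).val + 9 * (-a 2).val + 27 * (-a 3).val)

theorem clsN_neg (a : V0) : clsN (-a) = clsN a := by
  simp [clsN, min_comm]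

/-- An even permutation from two transpositions. -/
def pair4 (q : Fin 6 × Fin 6 × Fin 6 × Fin 6) : A6 :=
  if h : q.1 ≠ q.2.1 ∧ q.2.2.1 ≠ q.2.2.2 then
    ⟨Equiv.swap q.1 q.2.1 * Equiv.swap q.2.2.1 q.2.2.2, by
      rw [Equiv.Perm.mem_alternatingGroup, Equiv.Perm.sign_mul, Equiv.Perm.sign_swap h.1,
        Equiv.Perm.sign_swap h.2]
      rfl⟩
  else 1

/-- Some even permutations. -/
def permList : List A6 :=
  List.map pair4 [(0, 1, 0, 1), (0, 3, 3, 5), (1, 4, 1, 5), (1, 2, 2, 3), (0, 2, 0, 4), (1, 4, 4, 5),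
    (0, 3, 0, 5), (0, 2, 2, 4), (1, 2, 1, 3), (0, 1, 2, 5), (0, 1, 3, 4), (0, 4, 2, 5), (2, 5, 3, 4),
    (0, 1, 2, 4), (1, 2, 3, 5), (0, 5, 1, 3), (2, 4, 3, 5), (0, 4, 1, 3)]

theorem functional_orbit : ∀ a : V0, a = 0 ∨ (∃ p, a = chiVec p ∨ a = -chiVec p) ∨
    11 ≤ ((permList.map fun π => clsN (pullVec π a)).dedup).length := by
  decide +kernel

theorem triple_count : ∀ p : Fin 10, (Finset.univ.filter fun i => inTriple p i = true).card = 3 ∧
    (Finset.univ.filter fun i => (!inTriple p i) = true).card = 3 ∧ inTriple p 0 = true := by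
  decide +kernel

theorem triple_exists : ∀ f : Fin 6 → Bool, (Finset.univ.filter fun i => f i = true).card = 3 →
    f 0 = true → ∃ p, ∀ i, inTriple p i = f i := by
  decide +kernel

theorem triple_inj : ∀ p q : Fin 10, (∀ i, inTriple p i = inTriple q i) → p = q := by decide +kernel

theorem triple_reach : ∀ q : Fin 10, ∃ π ∈ permList, (tripleAct π 0).1 = q := by decide +kernel

/-- The defining property of the action on triples. -/
theorem tripleAct_iff (π : A6) (p p' : Fin 10) (s : Bool) :
    tripleAct π p = (p', s) ↔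
      ∀ i, inTriple p' ((π : Equiv.Perm (Fin 6)) i) = (bif s then inTriple p i else !inTriple p i) := by
  classical
  set σ : Equiv.Perm (Fin 6) := (π : Equiv.Perm (Fin 6)) with hσ
  set f : Fin 6 → Bool :=
    fun i => bif inTriple p (σ.symm 0) then inTriple p (σ.symm i) else !inTriple p (σ.symm i) with hf
  obtain ⟨c1, c2, -⟩ := triple_count p
  obtain ⟨q, hq⟩ := triple_exists f (by
    rw [hf]
    cases hb : inTriple p (σ.symm 0) <;> simp only [cond_true, cond_false]
    · refine Eq.trans ?_ c2
      exact Finset.card_equiv σ.symm (by simp)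
    · refine Eq.trans ?_ c1
      exact Finset.card_equiv σ.symm (by simp)) (by
    rw [hf]
    cases hb : inTriple p (σ.symm 0) <;> simp [hb])
  have hv : tripleAct π p = (q, inTriple p (σ.symm 0)) := by
    unfold tripleAct
    dsimp only
    split
    · next p'' hp'' =>
      have := Fin.find?_eq_some_iff.1 hp''
      simp only [decide_eq_true_eq] at this
      rw [triple_inj p'' q fun i => (this.1 i).trans (hq i).symm]
    · next hn =>
      exfalso
      have := Fin.find?_eq_none_iff.1 hn q
      simp only [decide_eq_false_iff_not] at this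
      exact this fun i => hq i
  rw [hv, Prod.mk.injEq]
  constructor
  · rintro ⟨rfl, rfl⟩ i
    rw [hq, hf]
    simp
  · intro h
    have h0 := h (σ.symm 0)
    rw [Equiv.apply_symm_apply, (triple_count p').2.2] at h0
    have hs : inTriple p (σ.symm 0) = s := by
      cases s <;> simp at h0 ⊢ <;> simp [h0]
    refine ⟨triple_inj q p' fun i => ?_, hs⟩
    have hi := h (σ.symm i)
    rw [Equiv.apply_symm_apply] at hi
    rw [hq, hi, hf, hs]

theorem tripleAct_mul (π π' : A6) (p : Fin 10) :
    tripleAct (π * π') p = ((tripleAct π (tripleAct π' p).1).1,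
      (tripleAct π (tripleAct π' p).1).2 == (tripleAct π' p).2) := by
  have h1 := (tripleAct_iff π' p (tripleAct π' p).1 (tripleAct π' p).2).1 rfl
  have h2 := (tripleAct_iff π (tripleAct π' p).1 (tripleAct π (tripleAct π' p).1).1 (tripleAct π (tripleAct π' p).1).2).1 rfl
  rw [tripleAct_iff]
  intro i
  rw [Subgroup.coe_mul, Equiv.Perm.mul_apply]
  refine (h2 _).trans ?_
  rw [h1]
  cases (tripleAct π (tripleAct π' p).1).2 <;> cases (tripleAct π' p).2 <;> simp

theorem tripleAct_one (p : Fin 10) : tripleAct 1 p = (p, true) := by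
  rw [tripleAct_iff]; intro i; simp

theorem tripleAct_inv {π : A6} {p p' : Fin 10} {s : Bool} (h : tripleAct π p = (p', s)) :
    tripleAct π⁻¹ p' = (p, s) := by
  rw [tripleAct_iff] at h ⊢
  intro i
  have e := h ((π : Equiv.Perm (Fin 6))⁻¹ i)
  rw [Equiv.Perm.coe_inv, Equiv.apply_symm_apply] at e
  rw [Subgroup.coe_inv, Equiv.Perm.coe_inv, e]
  cases s <;> simp

theorem chi_act0 (π : A6) (p : Fin 10) (v : V0) :
    chi (tripleAct π p).1 (act0 π v) =
      bif (tripleAct π p).2 then chi p v else -chi p v := by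
  have h := (tripleAct_iff π p (tripleAct π p).1 (tripleAct π p).2).1 rfl
  set p' := (tripleAct π p).1
  set s := (tripleAct π p).2
  set σ : Equiv.Perm (Fin 6) := (π : Equiv.Perm (Fin 6)) with hσ
  have hsum : ∀ (q : Fin 10) (f : Fin 6 → ZMod 3),
      f 0 + f (triple q).1 + f (triple q).2 = ∑ i, if inTriple q i then f i else 0 := by
    intro q f
    fin_cases q <;> simp [triple, inTriple, Fin.sum_univ_six]
  have hL : ∀ i, lift6 (act0 π v) i = lift6 v (σ.symm i) - lift6 v (σ.symm 5) := by
    intro i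
    have hz : ∑ k, lift6 v (σ.symm k) = 0 := by rw [Equiv.sum_comp σ.symm (lift6 v)]; exact lift6_sum_tbl v
    rw [Fin.sum_univ_six] at hz
    have h3 : ∀ x : ZMod 3, x + x + x = 0 := by decide
    simp only [act0, ← hσ]
    generalize lift6 v = L at hz ⊢
    fin_cases i <;> simp [lift6, proj4]
    linear_combination -hz + h3 (L (σ.symm 5)) + h3 (L (σ.symm 5))
  have h3 : ∀ x : ZMod 3, x + x + x = 0 := by decide
  simp only [chi]
  rw [hL, hL, hL, hsum p]
  have e1 := hsum p' fun i => lift6 v (σ.symm i)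
  rw [← Equiv.sum_comp σ] at e1
  simp only [Equiv.symm_apply_apply] at e1
  have e1' : (∑ i, if inTriple p' (σ i) then lift6 v i else 0) =
      ∑ i, if (bif s then inTriple p i else !inTriple p i) then lift6 v i else 0 :=
    Finset.sum_congr rfl fun i _ => by rw [h i]
  rw [e1'] at e1
  have e2 : (∑ i, if inTriple p i then lift6 v i else 0) + (∑ i, if !inTriple p i then lift6 v i else 0) = 0 := by
    rw [← Finset.sum_add_distrib]
    refine Eq.trans ?_ (lift6_sum_tbl v)
    refine Finset.sum_congr rfl fun i _ => ?_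
    cases inTriple p i <;> simp
  cases hs : s <;> simp only [hs, cond_true, cond_false] at e1 ⊢
  · linear_combination e1 + e2 - h3 (lift6 v (σ.symm 5))
  · linear_combination e1 - h3 (lift6 v (σ.symm 5))

theorem stab_triple_gen : ∀ π : A6, tripleAct π 0 = (0, true) →
    ∃ a ∈ ([1, pair4 (0, 1, 3, 4), pair4 (0, 1, 3, 5), pair4 (0, 1, 4, 5), pair4 (0, 2, 3, 4),
      pair4 (0, 2, 3, 5), pair4 (0, 2, 4, 5), pair4 (1, 2, 3, 4), pair4 (1, 2, 3, 5),
      pair4 (1, 2, 4, 5)] : List A6),
    ∃ b ∈ ([1, pair4 (0, 1, 3, 4), pair4 (0, 1, 3, 5), pair4 (0, 1, 4, 5), pair4 (0, 2, 3, 4),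
      pair4 (0, 2, 3, 5), pair4 (0, 2, 4, 5), pair4 (1, 2, 3, 4), pair4 (1, 2, 3, 5),
      pair4 (1, 2, 4, 5)] : List A6),
      π = a * b ∧ tripleAct a 0 = (0, true) ∧ tripleAct b 0 = (0, true) ∧ a * a = 1 ∧ b * b = 1 := by
  decide +kernel

/-- An even permutation exchanging the first triple and its complement. -/
def sigma0 : A6 := pair4 (0, 3, 1, 4) * pair4 (2, 5, 0, 1)

theorem sigma0_spec : tripleAct sigma0 0 = (0, false) := by decide +kernel

end CfsgLib.U43Recog
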