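import Cfsg.Agent.Lib.U43Recog.Defs
import Mathlib.Logic.Equiv.Fin.Basic

/-!
Recognition of `PSU₄(3)`: the standard set of 112 points and its graph, and the interfaces between
the determination of the permutation representation and the determination of the graph.
-/

set_option autoImplicit false

namespace CfsgLib.U43Recog

/-- The point fixed by the normaliser, ten times three near points, and the far points. -/
abbrev Pt := Option (Fin 10 × ZMod 3 ⊕ V0)

/-- The ten three-element subsets containing `0`, by their other two elements. -/
def triple (p : Fin 10) : Fin 6 × Fin 6 :=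
  ![(1, 2), (1, 3), (1, 4), (1, 5), (2, 3), (2, 4), (2, 5), (3, 4), (3, 5), (4, 5)] p

/-- Membership in a triple. -/
def inTriple (p : Fin 10) (i : Fin 6) : Bool :=
  decide (i = 0) || decide (i = (triple p).1) || decide (i = (triple p).2)

/-- The linear form of a triple. -/
def chi (p : Fin 10) (v : V0) : ZMod 3 :=
  lift6 v 0 + lift6 v (triple p).1 + lift6 v (triple p).2

/-- Translation by a vector. -/
def trans (t : V0) : Pt → Pt
  | none => none
  | some (.inl (p, c)) => some (.inl (p, c + chi p t))
  | some (.inr v) => some (.inr (v + t))

/-- The image of a triple and the sign: the triple containing `0` among the image and its complement. -/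
def tripleAct (π : A6) (p : Fin 10) : Fin 10 × Bool :=
  let inv := (π : Equiv.Perm (Fin 6)).symm
  let pos := inTriple p (inv 0)
  match Fin.find? (fun p' : Fin 10 => decide (∀ i : Fin 6, inTriple p' i =
      (bif pos then inTriple p (inv i) else !inTriple p (inv i)))) with
  | some p' => (p', pos)
  | none => (p, pos)

/-- The action of an even permutation. -/
def permPt (π : A6) : Pt → Pt
  | none => none
  | some (.inl (p, c)) => some (.inl ((tripleAct π p).1, bif (tripleAct π p).2 then c else -c))
  | some (.inr v) => some (.inr (act0 π v))

/-- The sum of the squares of a lift. -/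
def qf (v : V0) : ZMod 3 := ∑ i, lift6 v i * lift6 v i

/-- The graph. -/
def Adj : Pt → Pt → Prop
  | none, some (.inl _) => True
  | some (.inl _), none => True
  | some (.inl (p, c)), some (.inl (p', c')) => p = p' ∧ c ≠ c'
  | some (.inl (p, c)), some (.inr v) => chi p v = c
  | some (.inr v), some (.inl (p, c)) => chi p v = c
  | some (.inr v), some (.inr w) => v ≠ w ∧ qf (v - w) = 0
  | _, _ => False

instance : DecidableRel Adj := fun a b => by
  match a, b with
  | none, none => exact isFalse id
  | none, some (.inl _) => exact isTrue trivial
  | none, some (.inr _) => exact isFalse id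
  | some (.inl _), none => exact isTrue trivial
  | some (.inr _), none => exact isFalse id
  | some (.inl (p, c)), some (.inl (p', c')) => exact inferInstanceAs (Decidable (p = p' ∧ c ≠ c'))
  | some (.inl (p, c)), some (.inr v) => exact inferInstanceAs (Decidable (chi p v = c))
  | some (.inr v), some (.inl (p, c)) => exact inferInstanceAs (Decidable (chi p v = c))
  | some (.inr v), some (.inr w) => exact inferInstanceAs (Decidable (v ≠ w ∧ qf (v - w) = 0))

/-- The permutation representation on the standard points. -/
structure Rep {H : Type*} [Group H] (T : Subgroup H) (d : A6 →* H) (e : Multiplicative V0 →* H)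
    (ρ : H →* Equiv.Perm Pt) : Prop where
  frame : Frame T d e
  inj : Function.Injective ρ
  stab : ∀ g, ρ g none = none ↔ g ∈ Subgroup.normalizer (T : Set H)
  gen : Subgroup.normalizer (T : Set H) ≤ e.range ⊔ d.range
  rho_e : ∀ t a, ρ (e (Multiplicative.ofAdd t)) a = trans t a
  rho_d : ∀ π a, ρ (d π) a = permPt π a
  trans_all : ∀ a, ∃ g, ρ g none = a

end CfsgLib.U43Recog
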